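import Mathlib
import Cfsg.Agent.S5964
import Cfsg.Agent.Lib.Linalg.SemisimpleClasses
import Cfsg.Agent.Lib.Linalg.RCFType

/-!
# Conjugacy into subfield subgroups: the criterion through characteristic polynomials
-/

set_option autoImplicit false
set_option linter.unusedSectionVars false
set_option linter.unusedSimpArgs false
set_option linter.unusedVariables false
set_option linter.style.haveILetI false

open scoped MatrixGroups
open Polynomial Module

namespace Cfsg.Agent.Lib.Classical.SubF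

open Cfsg.Agent.Lib.Linalg.SemisimpleClasses Cfsg.Agent.Lib.Linalg.RCF Cfsg.Agent.Lib.Linalg.RCFType

section Scale

variable {F : Type*} [Field F] {n : ℕ}

theorem charpoly_smul_eq {c : F} (hc : c ≠ 0) (M : Matrix (Fin n) (Fin n) F) :
    (c • M).charpoly = C (c ^ n) * M.charpoly.comp (C c⁻¹ * X) := by
  classical
  have h1 : (M.charpoly).comp (C c⁻¹ * X) =
      ((Polynomial.compRingHom (C c⁻¹ * X)).mapMatrix (Matrix.charmatrix M)).det := by
    unfold Matrix.charpoly
    rw [← RingHom.map_det]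
    rfl
  have h2 : Matrix.charmatrix (c • M) =
      (C c : F[X]) • ((Polynomial.compRingHom (C c⁻¹ * X)).mapMatrix (Matrix.charmatrix M)) := by
    ext i j : 1
    by_cases hij : i = j
    · subst hij
      have h3 : (C c : F[X]) * C c⁻¹ = 1 := by rw [← C_mul, mul_inv_cancel₀ hc, C_1]
      simp only [Matrix.smul_apply, RingHom.mapMatrix_apply, Matrix.map_apply, Matrix.charmatrix_apply_eq,
        Polynomial.coe_compRingHom, sub_comp, X_comp, C_comp, smul_eq_mul, C_mul]
      linear_combination (-X) * h3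
    · simp only [Matrix.smul_apply, RingHom.mapMatrix_apply, Matrix.map_apply, Matrix.charmatrix_apply_ne _ _ _ hij,
        Polynomial.coe_compRingHom, neg_comp, C_comp, smul_eq_mul, C_mul]
      ring
  unfold Matrix.charpoly at *
  rw [h1, h2, Matrix.det_smul]
  simp

theorem charpoly_smul_congr {M M' : Matrix (Fin n) (Fin n) F} (h : M.charpoly = M'.charpoly) (c : F) :
    (c • M).charpoly = (c • M').charpoly := by
  by_cases hc : c = 0
  · subst hc
    simp
  · rw [charpoly_smul_eq hc, charpoly_smul_eq hc, h]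

end Scale

section Power

variable {F : Type*} [Field F] {n : ℕ}

theorem aeval_eq_zero_of_pow {A : Matrix (Fin n) (Fin n) F} {r : ℕ} {c : F}
    (h : A ^ r = c • (1 : Matrix (Fin n) (Fin n) F)) : aeval A (X ^ r - C c : F[X]) = 0 := by
  simp only [map_sub, map_pow, aeval_X, aeval_C, h, sub_eq_zero]
  rw [Algebra.algebraMap_eq_smul_one]

theorem charpoly_dvd_pow_of_pow {A : Matrix (Fin n) (Fin n) F} {r : ℕ} {c : F}
    (h : A ^ r = c • (1 : Matrix (Fin n) (Fin n) F)) :
    ∃ N : ℕ, A.charpoly ∣ (X ^ r - C c : F[X]) ^ N := by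
  have h1 := (aeval_matrix_eq_zero_iff A _).1 (aeval_eq_zero_of_pow h)
  refine ⟨Multiset.card (matType A), ?_⟩
  rw [charpoly_eq_prod_matType]
  have h2 : (X ^ r - C c : F[X]) ^ Multiset.card (matType A) =
      ((matType A).map fun _ => (X ^ r - C c : F[X])).prod := by
    simp
  rw [h2]
  exact Multiset.prod_dvd_prod_of_dvd _ _ h1

/-- The scalar `A ^ r` is determined by the characteristic polynomial of `A`. -/
theorem scalar_eq_of_charpoly_eq (hn : 0 < n) {A B : Matrix (Fin n) (Fin n) F} {r : ℕ} {c c' : F}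
    (hA : A ^ r = c • (1 : Matrix (Fin n) (Fin n) F)) (hB : B ^ r = c' • (1 : Matrix (Fin n) (Fin n) F))
    (h : A.charpoly = B.charpoly) : c = c' := by
  by_contra hne
  obtain ⟨N, hN⟩ := charpoly_dvd_pow_of_pow hA
  obtain ⟨N', hN'⟩ := charpoly_dvd_pow_of_pow hB
  rw [← h] at hN'
  have hcop : IsCoprime (X ^ r - C c : F[X]) (X ^ r - C c' : F[X]) := by
    have hd : c' - c ≠ 0 := sub_ne_zero.2 (Ne.symm hne)
    refine ⟨C (c' - c)⁻¹, -C (c' - c)⁻¹, ?_⟩
    have : (C (c' - c)⁻¹ : F[X]) * (C (c' - c)) = 1 := by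
      rw [← C_mul, inv_mul_cancel₀ hd, C_1]
    rw [C_sub] at this
    linear_combination this
  have hu := (hcop.pow (m := N) (n := N')).isUnit_of_dvd' hN hN'
  have hd := natDegree_eq_zero_of_isUnit hu
  rw [Matrix.charpoly_natDegree_eq_dim, Fintype.card_fin] at hd
  omega

end Power

section Semisimple

variable {K : Type*} [Field K] [Fintype K] {p : ℕ} [Fact p.Prime] [CharP K p] {n : ℕ}

/-- Every monic polynomial with nonzero constant term is the characteristic polynomial
of an element of `GL_n` of order prime to the characteristic. -/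
theorem exists_GL_of_charpoly {f : K[X]} (hfm : f.Monic) (hfd : f.natDegree = n) (hne : f.coeff 0 ≠ 0) :
    ∃ G : GL (Fin n) K, (orderOf G).Coprime p ∧
      ((G : GL (Fin n) K) : Matrix (Fin n) (Fin n) K).charpoly = f := by
  classical
  have had := adm_ofPoly (f := f)
  have hadm : ∀ a ∈ ofPoly f, Adm a := fun a ha => (had a ha).1
  have hp := prod_ofPoly hfm
  have h1 := coeff_zero_prod_type_ne_zero hadm
  rw [hp] at h1
  have hX := h1.mp hne
  have hsum : ((ofPoly f).map fun a => a.2 * a.1.natDegree).sum = Fintype.card (Fin n) := by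
    rw [← natDegree_prod_type hadm, hp, hfd, Fintype.card_fin]
  obtain ⟨G, hG⟩ := exists_GL_of_type (ι := Fin n) (F := K) (τ := ofPoly f)
    ⟨fun a ha => ⟨hadm a ha, hX a ha⟩, hsum⟩
  refine ⟨G, ?_, ?_⟩
  · rw [orderOf_coprime_iff p, hG]
    exact fun a ha => (had a ha).2
  · rw [charpoly_eq_prod_matType, hG, hp]

end Semisimple

section Good

variable {F : Type*} [Field F] {n : ℕ}

/-- Some scalar multiple of `M` has characteristic polynomial fixed by `φ`. -/
def Good (φ : F →+* F) (M : Matrix (Fin n) (Fin n) F) : Prop :=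
  ∃ a : F, a ≠ 0 ∧ ((a • M).charpoly).map φ = (a • M).charpoly

theorem Good.of_charpoly {φ : F →+* F} {M M' : Matrix (Fin n) (Fin n) F} (h : M.charpoly = M'.charpoly)
    (hg : Good φ M) : Good φ M' := by
  obtain ⟨a, ha, h1⟩ := hg
  refine ⟨a, ha, ?_⟩
  rw [← charpoly_smul_congr h a]
  exact h1

theorem Good.of_smul {φ : F →+* F} {M : Matrix (Fin n) (Fin n) F} {c : F} (hc : c ≠ 0) (hg : Good φ (c • M)) :
    Good φ M := by
  obtain ⟨a, ha, h1⟩ := hg
  refine ⟨a * c, mul_ne_zero ha hc, ?_⟩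
  rw [mul_smul]
  exact h1

theorem Good.smul {φ : F →+* F} {M : Matrix (Fin n) (Fin n) F} {c : F} (hc : c ≠ 0) (hg : Good φ M) :
    Good φ (c • M) := by
  apply Good.of_smul (inv_ne_zero hc)
  rw [smul_smul, inv_mul_cancel₀ hc, one_smul]
  exact hg

variable (F₀ : Subfield F)

open Cfsg.Agent.S5964 in
theorem good_of_mem {φ : F →+* F} (hφ : ∀ y ∈ F₀, φ y = y) {P x : Matrix.SpecialLinearGroup (Fin n) F}
    (h : P⁻¹ * x * P ∈ ((Cfsg.Geo.subfieldSubgroup F₀ 1).comap
      (Matrix.SpecialLinearGroup.toGL : Matrix.SpecialLinearGroup (Fin n) F →* GL (Fin n) F))) :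
    Good φ (x : Matrix (Fin n) (Fin n) F) := by
  classical
  obtain ⟨a, ha, hent⟩ := entries_of_mem_sub F₀ (Subgroup.mem_comap.1 h)
  refine ⟨a, ha, ?_⟩
  set y : Matrix.SpecialLinearGroup (Fin n) F := P⁻¹ * x * P with hy
  have hc : (y : Matrix (Fin n) (Fin n) F).charpoly = (x : Matrix (Fin n) (Fin n) F).charpoly := by
    have h2 : (((Matrix.SpecialLinearGroup.toGL P⁻¹)⁻¹ : GL (Fin n) F) : Matrix (Fin n) (Fin n) F) = (P : Matrix (Fin n) (Fin n) F) := by
      rw [← map_inv, inv_inv]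
      rfl
    have h1 := Matrix.charpoly_units_conj (Matrix.SpecialLinearGroup.toGL P⁻¹)
      (x : Matrix (Fin n) (Fin n) F)
    rw [← Matrix.coe_units_inv, h2] at h1
    rw [← h1, hy]
    rfl
  rw [← charpoly_smul_congr hc a]
  have hN : (a • (y : Matrix (Fin n) (Fin n) F)).map φ = a • (y : Matrix (Fin n) (Fin n) F) := by
    ext i j
    exact hφ _ (hent i j)
  rw [← Matrix.charpoly_map, hN]

end Good

section Back

variable {F : Type*} [Field F] [Fintype F] {p : ℕ} [Fact p.Prime] [CharP F p] {n : ℕ}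

theorem coprime_card_sub_one : (Fintype.card F - 1).Coprime p := by
  have hpF : p ∣ Fintype.card F := by
    rw [← CharP.cast_eq_zero_iff F p]
    exact Nat.cast_card_eq_zero F
  have hpos : 0 < Fintype.card F := Fintype.card_pos
  refine (Nat.Coprime.symm ?_)
  rw [Nat.Prime.coprime_iff_not_dvd (Fact.out : p.Prime)]
  intro h
  have h1 : p ∣ Fintype.card F - (Fintype.card F - 1) := Nat.dvd_sub hpF h
  have h2 : Fintype.card F - (Fintype.card F - 1) = 1 := by omega
  rw [h2] at h1
  exact (Fact.out : p.Prime).one_lt.ne' (Nat.dvd_one.1 h1)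

open Cfsg.Agent.S5964 in
theorem conj_of_good (F₀ : Subfield F) {φ : F →+* F} (hφ : ∀ y, φ y = y → y ∈ F₀)
    {x : Matrix.SpecialLinearGroup (Fin n) F} (hx : (orderOf x).Coprime p)
    (hg : Good φ (x : Matrix (Fin n) (Fin n) F)) :
    ∃ P : Matrix.SpecialLinearGroup (Fin n) F, P⁻¹ * x * P ∈ ((Cfsg.Geo.subfieldSubgroup F₀ 1).comap
      (Matrix.SpecialLinearGroup.toGL : Matrix.SpecialLinearGroup (Fin n) F →* GL (Fin n) F)) := by
  classical
  obtain ⟨a, ha, hinv⟩ := hg
  letI : Fintype F₀ := Fintype.ofFinite _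
  haveI : CharP F₀ p := RingHom.charP (F₀.subtype : F₀ →+* F) F₀.subtype.injective p
  set f := (a • (x : Matrix (Fin n) (Fin n) F)).charpoly with hf
  have hfm : f.Monic := Matrix.charpoly_monic _
  have hfd : f.natDegree = n := by
    rw [hf, Matrix.charpoly_natDegree_eq_dim, Fintype.card_fin]
  have hdet : (a • (x : Matrix (Fin n) (Fin n) F)).det = a ^ n := by
    rw [Matrix.det_smul, x.2, mul_one, Fintype.card_fin]
  have hf0 : (-1) ^ n * f.coeff 0 = a ^ n := by
    rw [← hdet, Matrix.det_eq_sign_charpoly_coeff, Fintype.card_fin]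
  have hf0' : f.coeff 0 ≠ 0 := by
    intro h
    rw [h, mul_zero] at hf0
    exact pow_ne_zero n ha hf0.symm
  have hl : f ∈ lifts (F₀.subtype : F₀ →+* F) := by
    rw [lifts_iff_coeff_lifts]
    intro m
    have h1 : φ (f.coeff m) = f.coeff m := by
      have := congrArg (fun g => coeff g m) hinv
      simpa [coeff_map] using this
    exact ⟨⟨_, hφ _ h1⟩, rfl⟩
  obtain ⟨f₀, hf₀, hd, hm⟩ := lifts_and_natDegree_eq_and_monic hl hfm
  have h00 : f₀.coeff 0 ≠ 0 := by
    intro h
    apply hf0'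
    rw [← hf₀, coeff_map, h, map_zero]
  obtain ⟨G, hGo, hGc⟩ := exists_GL_of_charpoly (p := p) hm (hd.trans hfd) h00
  set y : Matrix (Fin n) (Fin n) F := ((G : GL (Fin n) F₀) : Matrix (Fin n) (Fin n) F₀).map F₀.subtype with hy
  have hyc : y.charpoly = f := by
    rw [hy, Matrix.charpoly_map, hGc, hf₀]
  have hdety : y.det = a ^ n := by
    rw [Matrix.det_eq_sign_charpoly_coeff, hyc, Fintype.card_fin, hf0]
  have hdetY : (a⁻¹ • y).det = 1 := by
    rw [Matrix.det_smul, hdety, Fintype.card_fin, inv_pow, inv_mul_cancel₀ (pow_ne_zero n ha)]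
  let Y : Matrix.SpecialLinearGroup (Fin n) F := ⟨a⁻¹ • y, hdetY⟩
  have hYc : (Y : Matrix (Fin n) (Fin n) F).charpoly = (x : Matrix (Fin n) (Fin n) F).charpoly := by
    have h1 := charpoly_smul_congr hyc a⁻¹
    rw [smul_smul, inv_mul_cancel₀ ha, one_smul] at h1
    exact h1
  have hYo : (orderOf Y).Coprime p := by
    have h1 : Y ^ (orderOf G * (Fintype.card F - 1)) = 1 := by
      apply Subtype.ext
      rw [Matrix.SpecialLinearGroup.coe_pow]
      change (a⁻¹ • y) ^ (orderOf G * (Fintype.card F - 1)) = 1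
      rw [_root_.smul_pow, pow_mul y, pow_mul _ _ (Fintype.card F - 1), FiniteField.pow_card_sub_one_eq_one _ (pow_ne_zero _ (inv_ne_zero ha))]
      have h2 : y ^ orderOf G = 1 := by
        have h3 := pow_orderOf_eq_one G
        have h4 : ((G ^ orderOf G : GL (Fin n) F₀) : Matrix (Fin n) (Fin n) F₀) = 1 := by rw [h3]; rfl
        rw [hy, ← RingHom.mapMatrix_apply, ← map_pow, RingHom.mapMatrix_apply]
        rw [Units.val_pow_eq_pow_val] at h4
        rw [h4]
        simp
      rw [h2, one_pow, one_smul]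
    have h2 : orderOf Y ∣ orderOf G * (Fintype.card F - 1) := orderOf_dvd_of_pow_eq_one h1
    exact Nat.Coprime.coprime_dvd_left h2 (Nat.Coprime.mul_left hGo coprime_card_sub_one)
  obtain ⟨c, hc⟩ := isConj_iff.1 (isConj_SL_of_charpoly_eq p hx hYo hYc.symm)
  refine ⟨c⁻¹, ?_⟩
  have h5 : c⁻¹⁻¹ * x * c⁻¹ = Y := by
    rw [inv_inv, hc]
  rw [h5]
  apply mem_sub_of_entries F₀ ha
  intro i j
  change a * (a⁻¹ • y) i j ∈ F₀
  rw [Matrix.smul_apply, smul_eq_mul, ← mul_assoc, mul_inv_cancel₀ ha, one_mul]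
  exact ((G : Matrix (Fin n) (Fin n) F₀) i j).2

end Back

end Cfsg.Agent.Lib.Classical.SubF
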