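import Mathlib
import Cfsg.Agent.Lib.Classical.SubF.Basic
import Cfsg.Agent.Lib.Classical.Herm.CycTuples

/-!
# The Frobenius map of the subfield
-/

set_option autoImplicit false
set_option linter.unusedSectionVars false
set_option linter.unusedSimpArgs false
set_option linter.unusedVariables false
set_option linter.style.haveILetI false

open scoped MatrixGroups
open Polynomial Module

namespace Cfsg.Agent.Lib.Classical.SubF

open Cfsg.Agent.Lib.Linalg.SemisimpleClasses Cfsg.Agent.Lib.Linalg.RCF Cfsg.Agent.Lib.Linalg.RCFType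

section Frob

variable {F : Type*} [Field F] [Fintype F] {p : ℕ} [Fact p.Prime] [CharP F p]

theorem aeval_frob {E : Type*} [CommRing E] [Algebra F E] (e : ℕ) (g : F[X]) (y : E) :
    aeval (y ^ (p ^ e)) (g.map (iterateFrobenius F p e)) = (aeval y g) ^ (p ^ e) := by
  have h1 := map_iterateFrobenius_expand (p := p) g e
  rw [map_expand] at h1
  have h2 := congrArg (aeval y) h1
  rw [expand_aeval, map_pow] at h2
  exact h2

/-- The fixed points of the Frobenius map of the subfield. -/
theorem exists_frob (F₀ : Subfield F) {q₀ : ℕ} (hF₀ : Nat.card F₀ = q₀) :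
    ∃ e : ℕ, q₀ = p ^ e ∧ (∀ y, iterateFrobenius F p e y = y ^ q₀) ∧
      (∀ y, iterateFrobenius F p e y = y ↔ y ∈ F₀) := by
  classical
  letI : Fintype F₀ := Fintype.ofFinite _
  haveI : CharP F₀ p := RingHom.charP (F₀.subtype : F₀ →+* F) F₀.subtype.injective p
  have hc : Fintype.card F₀ = q₀ := by rw [← Nat.card_eq_fintype_card, hF₀]
  obtain ⟨e, -, he⟩ := FiniteField.card F₀ p
  rw [hc] at he
  have happ : ∀ y, iterateFrobenius F p e y = y ^ q₀ := by
    intro y
    rw [iterateFrobenius_def, he]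
  refine ⟨e, he, happ, ?_⟩
  have hmem : ∀ y ∈ F₀, y ^ q₀ = y := by
    intro y hy
    have h1 : (⟨y, hy⟩ : F₀) ^ q₀ = ⟨y, hy⟩ := by
      rw [← hc]
      exact FiniteField.pow_card _
    exact congrArg Subtype.val h1
  intro y
  rw [happ]
  refine ⟨fun hy => ?_, hmem y⟩
  have hq1 : 1 < q₀ := by
    rw [← hc]
    exact Fintype.one_lt_card
  have hne : (X ^ q₀ - X : F[X]) ≠ 0 := FiniteField.X_pow_card_sub_X_ne_zero F hq1
  have hroot : ∀ v : F, v ∈ (X ^ q₀ - X : F[X]).roots.toFinset ↔ v ^ q₀ = v := by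
    intro v
    rw [Multiset.mem_toFinset, mem_roots hne]
    simp [IsRoot.def, sub_eq_zero]
  set S := (X ^ q₀ - X : F[X]).roots.toFinset with hS
  set T : Finset F := Finset.univ.image (fun v : F₀ => (v : F)) with hT
  have hTS : T ⊆ S := by
    intro v hv
    obtain ⟨w, -, rfl⟩ := Finset.mem_image.1 hv
    rw [hroot]
    exact hmem _ w.2
  have hTc : T.card = q₀ := by
    rw [hT, Finset.card_image_of_injective _ Subtype.val_injective, Finset.card_univ, hc]
  have hSc : S.card ≤ q₀ := by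
    calc S.card ≤ Multiset.card (X ^ q₀ - X : F[X]).roots := Multiset.toFinset_card_le _
      _ ≤ (X ^ q₀ - X : F[X]).natDegree := card_roots' _
      _ = q₀ := FiniteField.X_pow_card_sub_X_natDegree_eq F hq1
  have hST : S = T := (Finset.eq_of_subset_of_card_le hTS (by omega)).symm
  have hyS : y ∈ S := (hroot y).2 hy
  rw [hST] at hyS
  obtain ⟨w, -, rfl⟩ := Finset.mem_image.1 hyS
  exact w.2

variable {n : ℕ}

/-- Monic irreducible factors of `X ^ k - 1`, `k` prime, are invariant if `q₀ ≡ q (mod k)`. -/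
theorem map_frob_eq_of_dvd {k : ℕ} (hk : k.Prime) (e : ℕ)
    (hqq : (p ^ e : ZMod k) = (Fintype.card F : ZMod k)) {g : F[X]} (hm : g.Monic) (hi : Irreducible g)
    (hd : g ∣ (X ^ k - 1 : F[X])) : g.map (iterateFrobenius F p e) = g := by
  classical
  haveI : Fact (Irreducible g) := ⟨hi⟩
  set φ := iterateFrobenius F p e with hφ
  set ζ : AdjoinRoot g := AdjoinRoot.root g with hζ
  have h0 : aeval ζ g = 0 := Cfsg.Agent.Lib.Classical.Herm.CycTuples.aeval_root g
  have hk1 : ζ ^ k = 1 := by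
    have h1 : AdjoinRoot.mk g (X ^ k - 1 : F[X]) = 0 := AdjoinRoot.mk_eq_zero.2 hd
    rw [map_sub, map_pow, AdjoinRoot.mk_X, map_one] at h1
    exact sub_eq_zero.1 h1
  have hpow : ζ ^ (p ^ e) = ζ ^ Fintype.card F := by
    have h1 : ((p ^ e : ℕ) : ZMod k) = ((Fintype.card F : ℕ) : ZMod k) := by
      push_cast
      exact hqq
    rw [ZMod.natCast_eq_natCast_iff] at h1
    rw [pow_eq_pow_mod _ hk1, h1, ← pow_eq_pow_mod _ hk1]
  have h1 : aeval (ζ ^ Fintype.card F) (g.map φ) = 0 := by
    rw [← hpow, aeval_frob, h0]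
    exact zero_pow (pow_ne_zero _ (Fact.out : p.Prime).ne_zero)
  have h2 : aeval (ζ ^ Fintype.card F) g = 0 := by
    rw [Cfsg.Agent.Lib.Classical.Herm.CycTuples.aeval_pow_card, h0]
    exact zero_pow Fintype.card_ne_zero
  have h3 := minpoly.eq_of_irreducible_of_monic hi h2 hm
  have h4 : minpoly F (ζ ^ Fintype.card F) ∣ g.map φ := minpoly.dvd F _ h1
  rw [← h3] at h4
  exact eq_of_monic_of_dvd_of_natDegree_le hm (hm.map φ) h4 (by rw [natDegree_map])

/-- A matrix whose `k`-th power is one has invariant characteristic polynomial if `q₀ ≡ q (mod k)`. -/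
theorem charpoly_map_frob_eq {k : ℕ} (hk : k.Prime) (e : ℕ)
    (hqq : (p ^ e : ZMod k) = (Fintype.card F : ZMod k)) {A : Matrix (Fin n) (Fin n) F}
    (hA : A ^ k = 1) : A.charpoly.map (iterateFrobenius F p e) = A.charpoly := by
  classical
  have h1 : aeval A (X ^ k - 1 : F[X]) = 0 := by
    simp [hA]
  have h2 := (aeval_matrix_eq_zero_iff A _).1 h1
  rw [charpoly_eq_prod_matType, Polynomial.map_multiset_prod, Multiset.map_map]
  congr 1
  apply Multiset.map_congr rfl
  intro a ha
  have hadm := matType_adm A a ha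
  have h3 : a.1 ∣ (X ^ k - 1 : F[X]) := (dvd_pow_self a.1 hadm.2.2.ne').trans (h2 a ha)
  simp only [Function.comp, Polynomial.map_pow]
  rw [map_frob_eq_of_dvd hk e hqq hadm.1 hadm.2.1 h3]

end Frob

end Cfsg.Agent.Lib.Classical.SubF
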