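import Mathlib
import Cfsg.Agent.Lib.Classical.SubF.Frob

/-!
# Diagonal elements
-/

set_option autoImplicit false
set_option linter.unusedSectionVars false
set_option linter.unusedSimpArgs false
set_option linter.unusedVariables false
set_option linter.style.haveILetI false

open scoped MatrixGroups
open Polynomial Module

namespace Cfsg.Agent.Lib.Classical.SubF

section Diag

variable {F : Type*} [Field F] {n : ℕ}

theorem exists_fn_of_multiset (M : Multiset F) (hM : Multiset.card M = n) :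
    ∃ w : Fin n → F, Finset.univ.val.map w = M := by
  subst hM
  induction M using Quotient.inductionOn with
  | h l =>
    change ∃ w : Fin (l.length) → F, Finset.univ.val.map w = (l : Multiset F)
    refine ⟨l.get, ?_⟩
    rw [Fin.univ_val_map, List.ofFn_get]

theorem charpoly_diag (w : Fin n → F) : (Matrix.diagonal w).charpoly =
    ((Finset.univ.val.map w).map (fun v => (X - C v : F[X]))).prod := by
  rw [Matrix.charpoly_diagonal, Multiset.map_map]
  rfl

theorem smul_diag (a : F) (w : Fin n → F) : a • Matrix.diagonal w = Matrix.diagonal (fun j => a * w j) := by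
  ext i j
  by_cases hij : i = j
  · subst hij
    simp
  · simp [hij]

/-- The invariance criterion for diagonal matrices. -/
theorem good_diag_iff {φ : F →+* F} (w : Fin n → F) : Good φ (Matrix.diagonal w) ↔
    ∃ a : F, a ≠ 0 ∧ ((Finset.univ.val.map w).map (fun v => a * v)).map φ =
      (Finset.univ.val.map w).map (fun v => a * v) := by
  have key : ∀ a : F, (a • Matrix.diagonal w).charpoly =
      (((Finset.univ.val.map w).map (fun v => a * v)).map (fun v => (X - C v : F[X]))).prod := by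
    intro a
    rw [smul_diag, charpoly_diag]
    have : (Finset.univ.val.map w).map (fun v => a * v) = Finset.univ.val.map (fun j => a * w j) := by
      rw [Multiset.map_map]
      rfl
    rw [this]
  have key2 : ∀ N : Multiset F, ((N.map (fun v => (X - C v : F[X]))).prod).map φ =
      ((N.map φ).map (fun v => (X - C v : F[X]))).prod := by
    intro N
    rw [Polynomial.map_multiset_prod, Multiset.map_map, Multiset.map_map]
    congr 1
    apply Multiset.map_congr rfl
    intro v _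
    simp
  constructor
  · rintro ⟨a, ha, h⟩
    refine ⟨a, ha, ?_⟩
    rw [key, key2] at h
    have h2 := congrArg Polynomial.roots h
    rwa [roots_multiset_prod_X_sub_C, roots_multiset_prod_X_sub_C] at h2
  · rintro ⟨a, ha, h⟩
    refine ⟨a, ha, ?_⟩
    rw [key, key2, h]

theorem lam_of_good_diag {φ : F →+* F} {w : Fin n → F} (h : Good φ (Matrix.diagonal w)) :
    ∃ l : F, l ≠ 0 ∧ (Finset.univ.val.map w).map (fun v => l * φ v) = Finset.univ.val.map w := by
  obtain ⟨a, ha, h1⟩ := (good_diag_iff w).1 h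
  refine ⟨a⁻¹ * φ a, mul_ne_zero (inv_ne_zero ha) (by simpa using ha), ?_⟩
  generalize Finset.univ.val.map w = M at h1 ⊢
  have h2 := congrArg (Multiset.map (fun v => a⁻¹ * v)) h1
  have e1 : ((M.map (fun v => a * v)).map φ).map (fun v => a⁻¹ * v) = M.map (fun v => a⁻¹ * φ a * φ v) := by
    rw [Multiset.map_map, Multiset.map_map]
    apply Multiset.map_congr rfl
    intro v _
    simp [mul_assoc]
  have e2 : (M.map (fun v => a * v)).map (fun v => a⁻¹ * v) = M := by
    rw [Multiset.map_map]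
    have h4 : ((fun v => a⁻¹ * v) ∘ (fun v => a * v)) = (id : F → F) := by
      funext v
      simp only [Function.comp, id]
      field_simp
    rw [h4, Multiset.map_id]
  rw [e1, e2] at h2
  exact h2

/-- A diagonal element of `SL` from a multiset of eigenvalues for which the invariance fails. -/
theorem exists_bad_of_mset {φ : F →+* F} (M : Multiset F) (hcard : Multiset.card M = n) (hprod : M.prod = 1)
    {r : ℕ} {z : F} (hpow : ∀ v ∈ M, v ^ r = z) {u v : F} (hu : u ∈ M) (hv : v ∈ M) (huv : u ≠ v)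
    (hbad : ∀ l : F, l ≠ 0 → M.map (fun v => l * φ v) ≠ M) :
    ∃ x : Matrix.SpecialLinearGroup (Fin n) F,
      ((x ^ r : Matrix.SpecialLinearGroup (Fin n) F) : Matrix (Fin n) (Fin n) F) = z • (1 : Matrix (Fin n) (Fin n) F) ∧
      (∀ c : F, (x : Matrix (Fin n) (Fin n) F) ≠ c • (1 : Matrix (Fin n) (Fin n) F)) ∧
      ¬ Good φ (x : Matrix (Fin n) (Fin n) F) := by
  classical
  obtain ⟨w, rfl⟩ := exists_fn_of_multiset M hcard
  have hdet : (Matrix.diagonal w).det = 1 := by
    rw [Matrix.det_diagonal]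
    exact hprod
  let x : Matrix.SpecialLinearGroup (Fin n) F := ⟨Matrix.diagonal w, hdet⟩
  have hx : (x : Matrix (Fin n) (Fin n) F) = Matrix.diagonal w := rfl
  refine ⟨x, ?_, ?_, ?_⟩
  · rw [Matrix.SpecialLinearGroup.coe_pow, hx, Matrix.diagonal_pow, Matrix.smul_one_eq_diagonal]
    congr 1
    funext j
    exact hpow _ (Multiset.mem_map_of_mem w (Finset.mem_univ j))
  · intro c hc
    rw [hx, Matrix.smul_one_eq_diagonal] at hc
    have hall : ∀ t ∈ Finset.univ.val.map w, t = c := by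
      intro t ht
      obtain ⟨j, -, rfl⟩ := Multiset.mem_map.1 ht
      have := congrFun (Matrix.diagonal_injective hc) j
      exact this
    exact huv ((hall u hu).trans (hall v hv).symm)
  · intro hg
    rw [hx] at hg
    obtain ⟨l, hl, h⟩ := lam_of_good_diag hg
    exact hbad l hl h

section Cases

variable {F : Type*} [Field F] {n : ℕ} {φ : F →+* F}

theorem ne_one_of_orderOf {ζ : F} {r : ℕ} (hr : r.Prime) (hζ : orderOf ζ = r) : ζ ≠ 1 := by
  rintro rfl
  rw [orderOf_one] at hζ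
  exact hr.one_lt.ne hζ

theorem pow_ne_one_of_orderOf {ζ : F} {r : ℕ} (hζ : orderOf ζ = r) {t : ℕ} (ht : ¬ r ∣ t) : ζ ^ t ≠ 1 := by
  intro h
  exact ht (hζ ▸ orderOf_dvd_of_pow_eq_one h)

theorem ne_zero_of_orderOf {ζ : F} {r : ℕ} (hr : r.Prime) (hζ : orderOf ζ = r) : ζ ≠ 0 := by
  rintro rfl
  have h1 := pow_orderOf_eq_one (0 : F)
  rw [hζ, zero_pow hr.ne_zero] at h1
  exact zero_ne_one h1

theorem eq_one_of_pow_pow {l : F} {r m : ℕ} (hr : r.Prime) (hm : ¬ r ∣ m) (h1 : l ^ r = 1) (h2 : l ^ m = 1) : l = 1 := by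
  have h3 : Nat.Coprime r m := (Nat.Prime.coprime_iff_not_dvd hr).2 hm
  have h4 : l ^ Nat.gcd r m = 1 := pow_gcd_eq_one.2 ⟨h1, h2⟩
  rwa [h3.gcd_eq_one, pow_one] at h4

open scoped _root_.Classical in
/-- The element `diag(ζ, ζ⁻¹, 1, …, 1)`. -/
theorem exists_bad_E2 {r : ℕ} (hr : r.Prime) (hr2 : r ≠ 2) (hr3 : r ≠ 3) (hn : 2 ≤ n) {ζ : F} (hζ : orderOf ζ = r)
    (hu : φ ζ ≠ ζ) (hu' : φ ζ ≠ ζ⁻¹) :
    ∃ x : Matrix.SpecialLinearGroup (Fin n) F,
      ((x ^ r : Matrix.SpecialLinearGroup (Fin n) F) : Matrix (Fin n) (Fin n) F) = (1 : F) • (1 : Matrix (Fin n) (Fin n) F) ∧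
      (∀ c : F, (x : Matrix (Fin n) (Fin n) F) ≠ c • (1 : Matrix (Fin n) (Fin n) F)) ∧
      ¬ Good φ (x : Matrix (Fin n) (Fin n) F) := by
  obtain ⟨m, rfl⟩ : ∃ m, n = m + 2 := ⟨n - 2, by omega⟩
  have hζ0 := ne_zero_of_orderOf hr hζ
  have hζ1 := ne_one_of_orderOf hr hζ
  have hζr : ζ ^ r = 1 := hζ ▸ pow_orderOf_eq_one ζ
  have hζ2 : ζ ^ 2 ≠ 1 := pow_ne_one_of_orderOf hζ (fun h => hr2 ((Nat.prime_dvd_prime_iff_eq hr Nat.prime_two).1 h))
  have hζi : ζ⁻¹ ≠ 1 := by
    intro h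
    exact hζ1 (inv_eq_one.1 h)
  have hne : ζ ≠ ζ⁻¹ := by
    intro h
    apply hζ2
    calc ζ ^ 2 = ζ * ζ := by ring
      _ = ζ * ζ⁻¹ := by rw [← h]
      _ = 1 := mul_inv_cancel₀ hζ0
  set μ := φ ζ with hμ
  have hμ0 : μ ≠ 0 := by simpa [hμ] using hζ0
  have hμr : μ ^ r = 1 := by rw [hμ, ← map_pow, hζr, map_one]
  have hμ2 : μ ^ 2 ≠ 1 := by
    intro h
    apply hζ2
    apply φ.injective
    rw [map_pow, map_one]
    exact h
  refine exists_bad_of_mset (ζ ::ₘ ζ⁻¹ ::ₘ Multiset.replicate m 1) (by simp) (by simp [hζ0]) ?_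
    (u := ζ) (v := ζ⁻¹) (by simp) (by simp) hne ?_
  · intro v hv
    simp only [Multiset.mem_cons, Multiset.mem_replicate] at hv
    rcases hv with rfl | rfl | ⟨-, rfl⟩
    · exact hζr
    · rw [inv_pow, hζr, inv_one]
    · exact one_pow r
  · intro l hl h
    have hmap : (ζ ::ₘ ζ⁻¹ ::ₘ Multiset.replicate m (1 : F)).map (fun v => l * φ v) =
        (l * μ) ::ₘ (l * μ⁻¹) ::ₘ Multiset.replicate m l := by
      simp [Multiset.map_replicate, hμ]
    rw [hmap] at h
    -- the power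
    have hlr : l ^ r = 1 := by
      have h1 : l * μ ∈ (ζ ::ₘ ζ⁻¹ ::ₘ Multiset.replicate m (1 : F)) := by
        rw [← h]
        simp
      have h2 : (l * μ) ^ r = 1 := by
        simp only [Multiset.mem_cons, Multiset.mem_replicate] at h1
        rcases h1 with h1 | h1 | ⟨-, h1⟩
        · rw [h1, hζr]
        · rw [h1, inv_pow, hζr, inv_one]
        · rw [h1, one_pow]
      rwa [mul_pow, hμr, mul_one] at h2
    have hln : l ^ (m + 2) = 1 := by
      have h1 := congrArg Multiset.prod h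
      simp only [Multiset.prod_cons, Multiset.prod_replicate, one_pow, mul_one] at h1
      rw [mul_inv_cancel₀ hζ0] at h1
      have h2 : l * μ * (l * μ⁻¹ * l ^ m) = l ^ (m + 2) := by
        field_simp
        ring
      rw [← h2, h1]
    have hl1 : l = 1 := by
      by_cases hdvd : r ∣ m + 2
      · -- then `m ≥ 2`
        have hm : 2 ≤ m := by
          by_contra hlt
          have h5 : m = 0 ∨ m = 1 := by omega
          rcases h5 with rfl | rfl
          · exact hr2 ((Nat.prime_dvd_prime_iff_eq hr Nat.prime_two).1 hdvd)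
          · exact hr3 ((Nat.prime_dvd_prime_iff_eq hr Nat.prime_three).1 hdvd)
        by_contra hl1
        have hc := congrArg (Multiset.count (1 : F)) h
        simp only [Multiset.count_cons, Multiset.count_replicate, if_neg hl1, if_neg hζ1.symm, if_neg hζi.symm, if_pos rfl, if_true] at hc
        by_cases h5 : (1 : F) = l * μ
        · by_cases h6 : (1 : F) = l * μ⁻¹
          · apply hμ2
            have h7 : l * μ⁻¹ * μ ^ 2 = l * μ := by
              field_simp
            rw [← h6, ← h5, one_mul] at h7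
            exact h7
          · rw [if_pos h5, if_neg h6] at hc
            omega
        · rw [if_neg h5] at hc
          split_ifs at hc <;> omega
      · exact eq_one_of_pow_pow hr hdvd hlr hln
    subst hl1
    have h1 : ζ ∈ (1 * μ) ::ₘ (1 * μ⁻¹) ::ₘ Multiset.replicate m (1 : F) := by
      rw [h]
      simp
    simp only [Multiset.mem_cons, Multiset.mem_replicate, one_mul] at h1
    rcases h1 with h1 | h1 | ⟨-, h1⟩
    · exact hu h1.symm
    · apply hu'
      rw [h1, inv_inv]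
    · exact hζ1 h1

open scoped _root_.Classical in
/-- The element `diag(ω, ω, ω, 1, …, 1)` for `r = 3`. -/
theorem exists_bad_E3a {ω : F} (hω : orderOf ω = 3) (hφ : φ ω = ω⁻¹) {m : ℕ} (hm0 : m ≠ 0) (hm3 : m ≠ 3) :
    ∃ x : Matrix.SpecialLinearGroup (Fin (m + 3)) F,
      ((x ^ 3 : Matrix.SpecialLinearGroup (Fin (m + 3)) F) : Matrix (Fin (m + 3)) (Fin (m + 3)) F) = (1 : F) • (1 : Matrix (Fin (m + 3)) (Fin (m + 3)) F) ∧
      (∀ c : F, (x : Matrix (Fin (m + 3)) (Fin (m + 3)) F) ≠ c • (1 : Matrix (Fin (m + 3)) (Fin (m + 3)) F)) ∧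
      ¬ Good φ (x : Matrix (Fin (m + 3)) (Fin (m + 3)) F) := by
  have hr : Nat.Prime 3 := Nat.prime_three
  have hζ0 := ne_zero_of_orderOf hr hω
  have hζ1 := ne_one_of_orderOf hr hω
  have hζr : ω ^ 3 = 1 := hω ▸ pow_orderOf_eq_one ω
  have hζ2 : ω ^ 2 ≠ 1 := pow_ne_one_of_orderOf hω (by norm_num)
  have hne : ω ≠ ω⁻¹ := by
    intro h
    apply hζ2
    calc ω ^ 2 = ω * ω := by ring
      _ = ω * ω⁻¹ := by rw [← h]
      _ = 1 := mul_inv_cancel₀ hζ0
  refine exists_bad_of_mset (ω ::ₘ ω ::ₘ ω ::ₘ Multiset.replicate m 1) (by simp) ?_ ?_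
    (u := ω) (v := 1) (by simp)
    (Multiset.mem_cons_of_mem (Multiset.mem_cons_of_mem (Multiset.mem_cons_of_mem (Multiset.mem_replicate.2 ⟨hm0, rfl⟩)))) hζ1 ?_
  · simp only [Multiset.prod_cons, Multiset.prod_replicate, one_pow, mul_one]
    rw [← hζr]
    ring
  · intro v hv
    simp only [Multiset.mem_cons, Multiset.mem_replicate] at hv
    rcases hv with rfl | rfl | rfl | ⟨-, rfl⟩
    · exact hζr
    · exact hζr
    · exact hζr
    · exact one_pow 3
  · intro l hl h
    have hmap : (ω ::ₘ ω ::ₘ ω ::ₘ Multiset.replicate m (1 : F)).map (fun v => l * φ v) =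
        (l * ω⁻¹) ::ₘ (l * ω⁻¹) ::ₘ (l * ω⁻¹) ::ₘ Multiset.replicate m l := by
      simp [Multiset.map_replicate, hφ]
    rw [hmap] at h
    by_cases hl1 : l = 1
    · subst hl1
      have h1 : ω ∈ (1 * ω⁻¹) ::ₘ (1 * ω⁻¹) ::ₘ (1 * ω⁻¹) ::ₘ Multiset.replicate m (1 : F) := by
        rw [h]
        simp
      simp only [Multiset.mem_cons, Multiset.mem_replicate, one_mul] at h1
      rcases h1 with h1 | h1 | h1 | ⟨-, h1⟩
      · exact hne h1
      · exact hne h1
      · exact hne h1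
      · exact hζ1 h1
    · have hc := congrArg (Multiset.count (1 : F)) h
      simp only [Multiset.count_cons, Multiset.count_replicate, if_neg hl1, if_neg hζ1.symm, if_pos rfl, if_true] at hc
      split_ifs at hc <;> omega

open scoped _root_.Classical in
/-- The element `diag(ζ, ζ, ζ⁻², 1, …, 1)`. -/
theorem exists_bad_E3b {r : ℕ} (hr : r.Prime) (hr2 : r ≠ 2) (hr3 : r ≠ 3) {ζ : F} (hζ : orderOf ζ = r) (hφ : φ ζ = ζ⁻¹)
    {m : ℕ} (hh : ¬ r ∣ m + 3 ∨ 3 ≤ m) :
    ∃ x : Matrix.SpecialLinearGroup (Fin (m + 3)) F,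
      ((x ^ r : Matrix.SpecialLinearGroup (Fin (m + 3)) F) : Matrix (Fin (m + 3)) (Fin (m + 3)) F) = (1 : F) • (1 : Matrix (Fin (m + 3)) (Fin (m + 3)) F) ∧
      (∀ c : F, (x : Matrix (Fin (m + 3)) (Fin (m + 3)) F) ≠ c • (1 : Matrix (Fin (m + 3)) (Fin (m + 3)) F)) ∧
      ¬ Good φ (x : Matrix (Fin (m + 3)) (Fin (m + 3)) F) := by
  have hζ0 := ne_zero_of_orderOf hr hζ
  have hζ1 := ne_one_of_orderOf hr hζ
  have hζr : ζ ^ r = 1 := hζ ▸ pow_orderOf_eq_one ζ
  have hζ2 : ζ ^ 2 ≠ 1 := pow_ne_one_of_orderOf hζ (fun h => hr2 ((Nat.prime_dvd_prime_iff_eq hr Nat.prime_two).1 h))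
  have hζ3 : ζ ^ 3 ≠ 1 := pow_ne_one_of_orderOf hζ (fun h => hr3 ((Nat.prime_dvd_prime_iff_eq hr Nat.prime_three).1 h))
  have hζi : ζ⁻¹ ≠ 1 := fun h => hζ1 (inv_eq_one.1 h)
  have hζi2 : ζ⁻¹ ^ 2 ≠ 1 := by
    rw [inv_pow]
    exact fun h => hζ2 (inv_eq_one.1 h)
  have hne : ζ ≠ ζ⁻¹ := by
    intro h
    apply hζ2
    calc ζ ^ 2 = ζ * ζ := by ring
      _ = ζ * ζ⁻¹ := by rw [← h]
      _ = 1 := mul_inv_cancel₀ hζ0
  have hne2 : ζ ≠ ζ⁻¹ ^ 2 := by
    intro h
    apply hζ3
    calc ζ ^ 3 = ζ * ζ ^ 2 := by ring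
      _ = ζ⁻¹ ^ 2 * ζ ^ 2 := by rw [← h]
      _ = 1 := by field_simp
  refine exists_bad_of_mset (ζ ::ₘ ζ ::ₘ ζ⁻¹ ^ 2 ::ₘ Multiset.replicate m 1) (by simp) ?_ ?_
    (u := ζ) (v := ζ⁻¹ ^ 2) (by simp) (by simp) hne2 ?_
  · simp only [Multiset.prod_cons, Multiset.prod_replicate, one_pow, mul_one]
    field_simp
  · intro v hv
    simp only [Multiset.mem_cons, Multiset.mem_replicate] at hv
    rcases hv with rfl | rfl | rfl | ⟨-, rfl⟩
    · exact hζr
    · exact hζr
    · rw [← pow_mul, mul_comm, pow_mul, inv_pow, hζr, inv_one, one_pow]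
    · exact one_pow r
  · intro l hl h
    have hmap : (ζ ::ₘ ζ ::ₘ ζ⁻¹ ^ 2 ::ₘ Multiset.replicate m (1 : F)).map (fun v => l * φ v) =
        (l * ζ⁻¹) ::ₘ (l * ζ⁻¹) ::ₘ (l * ζ ^ 2) ::ₘ Multiset.replicate m l := by
      simp [Multiset.map_replicate, hφ]
    rw [hmap] at h
    have hlr : l ^ r = 1 := by
      have h1 : l * ζ⁻¹ ∈ (ζ ::ₘ ζ ::ₘ ζ⁻¹ ^ 2 ::ₘ Multiset.replicate m (1 : F)) := by
        rw [← h]
        simp
      have h2 : (l * ζ⁻¹) ^ r = 1 := by
        simp only [Multiset.mem_cons, Multiset.mem_replicate] at h1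
        rcases h1 with h1 | h1 | h1 | ⟨-, h1⟩
        · rw [h1, hζr]
        · rw [h1, hζr]
        · rw [h1, ← pow_mul, mul_comm, pow_mul, inv_pow, hζr, inv_one, one_pow]
        · rw [h1, one_pow]
      rwa [mul_pow, inv_pow, hζr, inv_one, mul_one] at h2
    have hln : l ^ (m + 3) = 1 := by
      have h1 := congrArg Multiset.prod h
      simp only [Multiset.prod_cons, Multiset.prod_replicate, one_pow, mul_one] at h1
      have h2 : l * ζ⁻¹ * (l * ζ⁻¹ * (l * ζ ^ 2 * l ^ m)) = l ^ (m + 3) := by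
        field_simp
        ring
      have h3 : ζ * (ζ * ζ⁻¹ ^ 2) = 1 := by
        field_simp
      rw [← h2, h1, h3]
    have hl1 : l = 1 := by
      by_cases hdvd : r ∣ m + 3
      · have hm : 3 ≤ m := by
          rcases hh with hh | hh
          · exact absurd hdvd hh
          · exact hh
        by_contra hl1
        have hc := congrArg (Multiset.count (1 : F)) h
        simp only [Multiset.count_cons, Multiset.count_replicate, if_neg hl1, if_neg hζ1.symm, if_neg hζi2.symm, if_pos rfl, if_true] at hc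
        by_cases h5 : (1 : F) = l * ζ⁻¹
        · by_cases h6 : (1 : F) = l * ζ ^ 2
          · apply hζ3
            have h7 : l * ζ ^ 2 = (l * ζ⁻¹) * ζ ^ 3 := by
              field_simp
            rw [← h5, ← h6, one_mul] at h7
            exact h7.symm
          · rw [if_pos h5, if_neg h6] at hc
            omega
        · rw [if_neg h5] at hc
          split_ifs at hc <;> omega
      · exact eq_one_of_pow_pow hr hdvd hlr hln
    subst hl1
    have h1 : ζ ∈ (1 * ζ⁻¹) ::ₘ (1 * ζ⁻¹) ::ₘ (1 * ζ ^ 2) ::ₘ Multiset.replicate m (1 : F) := by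
      rw [h]
      simp
    simp only [Multiset.mem_cons, Multiset.mem_replicate, one_mul] at h1
    rcases h1 with h1 | h1 | h1 | ⟨-, h1⟩
    · exact hne h1
    · exact hne h1
    · apply hζ1
      have h8 : ζ * ζ = ζ * 1 := by
        rw [mul_one]
        calc ζ * ζ = ζ ^ 2 := by ring
          _ = ζ := h1.symm
      exact (mul_left_cancel₀ hζ0 h8)
    · exact hζ1 h1

open scoped _root_.Classical in
/-- The element `c • diag(ζ, 1, …, 1)` with `c ^ r = ζ⁻¹`, in dimension `r`. -/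
theorem exists_bad_E3c {r : ℕ} (hr : r.Prime) (hr2 : r ≠ 2) {ζ : F} (hζ : orderOf ζ = r) (hφ : φ ζ = ζ⁻¹)
    {c : F} (hc : c ^ r = ζ⁻¹) :
    ∃ x : Matrix.SpecialLinearGroup (Fin r) F,
      ((x ^ r : Matrix.SpecialLinearGroup (Fin r) F) : Matrix (Fin r) (Fin r) F) = ζ⁻¹ • (1 : Matrix (Fin r) (Fin r) F) ∧
      (∀ c : F, (x : Matrix (Fin r) (Fin r) F) ≠ c • (1 : Matrix (Fin r) (Fin r) F)) ∧
      ¬ Good φ (x : Matrix (Fin r) (Fin r) F) := by
  have hζ0 := ne_zero_of_orderOf hr hζ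
  have hζ1 := ne_one_of_orderOf hr hζ
  have hζr : ζ ^ r = 1 := hζ ▸ pow_orderOf_eq_one ζ
  have hζ2 : ζ ^ 2 ≠ 1 := pow_ne_one_of_orderOf hζ (fun h => hr2 ((Nat.prime_dvd_prime_iff_eq hr Nat.prime_two).1 h))
  have hc0 : c ≠ 0 := by
    rintro rfl
    rw [zero_pow hr.ne_zero] at hc
    exact inv_ne_zero hζ0 hc.symm
  have hne : c * ζ ≠ c := by
    intro h
    apply hζ1
    exact mul_left_cancel₀ hc0 (h.trans (mul_one c).symm)
  obtain ⟨m, hm⟩ : ∃ m, r = m + 1 := ⟨r - 1, by have := hr.pos; omega⟩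
  have hm2 : 2 ≤ m := by
    have := hr.two_le
    omega
  have hcm : c ^ m * c = ζ⁻¹ := by
    rw [← pow_succ, ← hm, hc]
  refine exists_bad_of_mset ((c * ζ) ::ₘ Multiset.replicate m c) (by simp [hm]) ?_ ?_
    (u := c * ζ) (v := c) (by simp) (Multiset.mem_cons_of_mem (Multiset.mem_replicate.2 ⟨by omega, rfl⟩)) hne ?_
  · simp only [Multiset.prod_cons, Multiset.prod_replicate]
    calc c * ζ * c ^ m = (c ^ m * c) * ζ := by ring
      _ = 1 := by rw [hcm, inv_mul_cancel₀ hζ0]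
  · intro v hv
    simp only [Multiset.mem_cons, Multiset.mem_replicate] at hv
    rcases hv with rfl | ⟨-, rfl⟩
    · rw [mul_pow, hζr, mul_one, hc]
    · exact hc
  · intro l hl h
    set μ := l * φ c with hμ
    have hmap : ((c * ζ) ::ₘ Multiset.replicate m c).map (fun v => l * φ v) =
        (μ * ζ⁻¹) ::ₘ Multiset.replicate m μ := by
      simp [Multiset.map_replicate, hφ, hμ, mul_assoc]
    rw [hmap] at h
    have hμc : μ = c := by
      by_contra hne2
      have hh := congrArg (Multiset.count c) h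
      simp only [Multiset.count_cons, Multiset.count_replicate, if_neg hne2, if_neg hne.symm, if_pos rfl, if_true] at hh
      split_ifs at hh <;> omega
    rw [hμc] at h
    have h1 : c * ζ ∈ (c * ζ⁻¹) ::ₘ Multiset.replicate m c := by
      rw [h]
      simp
    simp only [Multiset.mem_cons, Multiset.mem_replicate] at h1
    rcases h1 with h1 | ⟨-, h1⟩
    · apply hζ2
      have h2 : ζ = ζ⁻¹ := mul_left_cancel₀ hc0 h1
      calc ζ ^ 2 = ζ * ζ := by ring
        _ = ζ * ζ⁻¹ := by rw [← h2]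
        _ = 1 := mul_inv_cancel₀ hζ0
    · exact hne h1

end Cases

end Diag

end Cfsg.Agent.Lib.Classical.SubF
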