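import Mathlib
import Cfsg.Agent.Lib.Classical.SubF.Diag
import Cfsg.Agent.Lib.Classical.Elusive.SlSp
import Cfsg.Agent.Lib.Classical.Elusive.PslNum

/-!
# An element with a large irreducible block
-/

set_option autoImplicit false
set_option linter.unusedSectionVars false
set_option linter.unusedSimpArgs false
set_option linter.unusedVariables false
set_option linter.style.haveILetI false

open scoped MatrixGroups
open Polynomial Module

namespace Cfsg.Agent.Lib.Classical.SubF

open Cfsg.Agent.Lib.Linalg.SemisimpleClasses Cfsg.Agent.Lib.Linalg.RCF Cfsg.Agent.Lib.Linalg.RCFType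
open Cfsg.Agent.Lib.Classical.Herm.CycTuples Cfsg.Agent.Lib.Linalg.PrimeOrderClasses

section E1

variable {F : Type*} [Field F] [Fintype F] {p : ℕ} [Fact p.Prime] [CharP F p] {n : ℕ}

theorem exists_bad_E1 {q r : ℕ} [Fact r.Prime] (hF : Fintype.card F = q) (hrp : r ≠ p) (hne : ¬ r ∣ q - 1) {e j : ℕ}
    (hj0 : 0 < j) (hjn : j ≤ n) (hqj : (q : ZMod r) ^ j = 1) (hq₀j : ((p ^ e : ℕ) : ZMod r) ^ j ≠ 1) :
    ∃ x : Matrix.SpecialLinearGroup (Fin n) F,
      ((x ^ r : Matrix.SpecialLinearGroup (Fin n) F) : Matrix (Fin n) (Fin n) F) = (1 : F) • (1 : Matrix (Fin n) (Fin n) F) ∧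
      (∀ c : F, (x : Matrix (Fin n) (Fin n) F) ≠ c • (1 : Matrix (Fin n) (Fin n) F)) ∧
      ¬ Good (iterateFrobenius F p e) (x : Matrix (Fin n) (Fin n) F) := by
  classical
  have hr : r.Prime := Fact.out
  have hq1 : 1 ≤ q := by
    rw [← hF]
    exact Fintype.card_pos
  obtain ⟨D, hD1, hD2, hD3, hipos, hQr⟩ := exists_cyc_data (p := p) hF hr hrp
  set i := orderOf (q : ZMod r) with hi
  have hij : i ∣ j := orderOf_dvd_of_pow_eq_one hqj
  have hin : i ≤ n := (Nat.le_of_dvd hj0 hij).trans hjn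
  have hi1 : i ≠ 1 := fun h => hne ((Cfsg.Agent.Lib.Classical.Elusive.PslNum.order_one_iff hq1).1 h)
  have hDne : D.Nonempty := by
    rw [← Finset.card_pos]
    by_contra h0
    have h00 : D.card = 0 := by omega
    rw [h00, zero_mul] at hD3
    have := hr.two_le
    omega
  obtain ⟨d, hd⟩ := hDne
  obtain ⟨hdm, hdi, hdd, hdne⟩ := hD1 d hd
  have hdvd : d ∣ (X ^ r - 1 : F[X]) := by
    have := (hD2 d hdm hdi 1 one_pos).2 ⟨rfl, Or.inr hd⟩
    rwa [pow_one] at this
  have hdX : d ≠ X := by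
    rintro rfl
    exact coeff_zero_ne_of_dvd hr.pos hdvd (by simp)
  have hX1 : (X - 1 : F[X]) ≠ X := by
    intro h
    have := congrArg (fun g => coeff g 0) h
    simp at this
  have hX1d : (X - 1 : F[X]) ∣ X ^ r - 1 := by
    simpa using sub_dvd_pow_sub_pow (X : F[X]) 1 r
  set τ : Multiset (F[X] × ℕ) := (d, 1) ::ₘ Multiset.replicate (n - i) ((X - 1 : F[X]), 1) with hτ
  have hmem : ∀ a ∈ τ, a = (d, 1) ∨ a = ((X - 1 : F[X]), 1) := by
    intro a ha
    rw [hτ, Multiset.mem_cons, Multiset.mem_replicate] at ha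
    rcases ha with ha | ⟨-, ha⟩
    · exact Or.inl ha
    · exact Or.inr ha
  have hGL : IsGLType (Fin n) F τ := by
    constructor
    · intro a ha
      rcases hmem a ha with rfl | rfl
      · exact ⟨⟨hdm, hdi, one_pos⟩, hdX⟩
      · exact ⟨⟨monic_X_sub_one', irreducible_X_sub_one', one_pos⟩, hX1⟩
    · rw [hτ]
      simp only [Multiset.map_cons, Multiset.map_replicate, Multiset.sum_cons, Multiset.sum_replicate, Fintype.card_fin]
      have h1 : (X - 1 : F[X]).natDegree = 1 := by
        have := natDegree_X_sub_C (1 : F)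
        simpa using this
      rw [hdd, h1]
      simp
      omega
  obtain ⟨G, hG⟩ := exists_GL_of_type hGL
  set A : Matrix (Fin n) (Fin n) F := (G : Matrix (Fin n) (Fin n) F) with hA
  have hAr : A ^ r = 1 := by
    have h1 : aeval A (X ^ r - 1 : F[X]) = 0 := by
      rw [aeval_matrix_eq_zero_iff, hG]
      intro a ha
      rcases hmem a ha with rfl | rfl
      · simpa using hdvd
      · simpa using hX1d
    simpa [sub_eq_zero] using h1
  have hdet : A.det = 1 := by
    apply Cfsg.Agent.Lib.Classical.Elusive.SlSp.eq_one_of_coprime hr (by rwa [hF])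
    rw [← Matrix.det_pow, hAr, Matrix.det_one]
  have hchar : A.charpoly = d * (X - 1) ^ (n - i) := by
    rw [charpoly_eq_prod_matType, hG, hτ]
    simp [Multiset.map_replicate]
  let x : Matrix.SpecialLinearGroup (Fin n) F := ⟨A, hdet⟩
  have hx : (x : Matrix (Fin n) (Fin n) F) = A := rfl
  refine ⟨x, ?_, ?_, ?_⟩
  · rw [Matrix.SpecialLinearGroup.coe_pow, hx, hAr, one_smul]
  · intro c hc
    rw [hx] at hc
    have h1 : aeval A (X - C c : F[X]) = 0 := by
      rw [hc]
      simp [Algebra.algebraMap_eq_smul_one]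
    rw [aeval_matrix_eq_zero_iff, hG] at h1
    have h2 := h1 (d, 1) (by rw [hτ]; simp)
    simp only [pow_one] at h2
    have h3 := natDegree_le_of_dvd h2 (X_sub_C_ne_zero c)
    rw [natDegree_X_sub_C, hdd] at h3
    have : 0 < i := hipos
    omega
  · rw [hx]
    rintro ⟨a, ha, hinv⟩
    set φ := iterateFrobenius F p e with hφ
    have hn0 : 0 < n := by omega
    have hAφ : (a • A).map φ = φ a • A.map φ := by
      ext u v
      simp
    have hB : (a • A) ^ r = a ^ r • (1 : Matrix (Fin n) (Fin n) F) := by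
      rw [_root_.smul_pow, hAr]
    have hmapr : (A.map φ) ^ r = 1 := by
      have := congrArg (φ.mapMatrix) hAr
      rwa [map_pow, map_one] at this
    have hB' : ((a • A).map φ) ^ r = (φ a) ^ r • (1 : Matrix (Fin n) (Fin n) F) := by
      rw [hAφ, _root_.smul_pow, hmapr]
    have hc : ((a • A).map φ).charpoly = (a • A).charpoly := by
      rw [Matrix.charpoly_map, hinv]
    have hpow := scalar_eq_of_charpoly_eq hn0 hB' hB hc
    have hfix : φ a = a := by
      have h1 : (φ a / a) ^ r = 1 := by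
        rw [div_pow, hpow, div_self (pow_ne_zero _ ha)]
      have h2 := Cfsg.Agent.Lib.Classical.Elusive.SlSp.eq_one_of_coprime hr (by rwa [hF]) h1
      exact (div_eq_one_iff_eq ha).1 h2
    rw [hAφ, hfix] at hc
    have hc2 := charpoly_smul_congr hc a⁻¹
    rw [smul_smul, inv_mul_cancel₀ ha, one_smul, smul_smul, inv_mul_cancel₀ ha, one_smul] at hc2
    rw [Matrix.charpoly_map, hchar, Polynomial.map_mul, Polynomial.map_pow] at hc2
    have hX1φ : (X - 1 : F[X]).map φ = X - 1 := by simp
    rw [hX1φ] at hc2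
    have hd2 : d.map φ = d := by
      have h5 : (X - 1 : F[X]) ^ (n - i) ≠ 0 := pow_ne_zero _ monic_X_sub_one'.ne_zero
      exact mul_right_cancel₀ h5 hc2
    haveI : Fact (Irreducible d) := ⟨hdi⟩
    have hζ := orderOf_root (F := F) (r := r) hdm hdvd hdne
    have h0 := aeval_root d
    have h1 : aeval ((AdjoinRoot.root d) ^ (p ^ e)) d = 0 := by
      have h2 := aeval_frob (p := p) e d (AdjoinRoot.root d)
      rw [← hφ, hd2, h0] at h2
      rw [h2]
      exact zero_pow (pow_ne_zero _ (Fact.out : p.Prime).ne_zero)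
    obtain ⟨t, ht⟩ := (aeval_pow_iff hF hQr hdm hdd h0 hζ (p ^ e)).1 h1
    apply hq₀j
    rw [ht, ← pow_mul, mul_comm, pow_mul, hqj, one_pow]

end E1

end Cfsg.Agent.Lib.Classical.SubF
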