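import Mathlib
import Cfsg.Agent.Lib.Classical.SubF.Cyc
import Cfsg.Agent.Lib.Linalg.Basic

/-!
# The index of the subfield subgroup
-/

set_option autoImplicit false
set_option linter.unusedSectionVars false
set_option linter.unusedSimpArgs false
set_option linter.unusedVariables false
set_option linter.style.haveILetI false

open scoped MatrixGroups
open Polynomial Module

namespace Cfsg.Agent.Lib.Classical.SubF

section Arith

/-- The geometric sum. -/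
def S (q₀ k t : ℕ) : ℕ := ∑ s ∈ Finset.range k, (q₀ ^ t) ^ s

theorem term_identity {q₀ k n : ℕ} (hq0 : 0 < q₀) (hk1 : 1 ≤ k) (i : ℕ) (hi : i ≤ n) :
    (q₀ ^ k) ^ n - (q₀ ^ k) ^ i = (q₀ ^ n - q₀ ^ i) * (q₀ ^ ((k - 1) * i) * S q₀ k (n - i)) := by
  obtain ⟨t, rfl⟩ : ∃ t, n = i + t := ⟨n - i, by omega⟩
  rw [Nat.add_sub_cancel_left]
  obtain ⟨x, hx⟩ : ∃ x, q₀ ^ t = x + 1 := ⟨q₀ ^ t - 1, by have := Nat.pos_of_ne_zero (pow_ne_zero t hq0.ne'); omega⟩
  have hS := geom_sum_mul_add x k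
  have hSdef : S q₀ k t = ∑ i ∈ Finset.range k, (x + 1) ^ i := by
    unfold S
    rw [hx]
  rw [hSdef]
  set S' := ∑ i ∈ Finset.range k, (x + 1) ^ i with hS'
  have e1 : (q₀ ^ k) ^ (i + t) = q₀ ^ (k * i) * (x + 1) ^ k := by
    rw [← hx, ← pow_mul, ← pow_mul, ← pow_add]
    ring_nf
  have e2 : (q₀ ^ k) ^ i = q₀ ^ (k * i) := by rw [← pow_mul]
  have e3 : q₀ ^ (i + t) = q₀ ^ i * (x + 1) := by rw [pow_add, hx]
  rw [e1, e2, e3, ← hS]
  have e4 : q₀ ^ (k * i) = q₀ ^ ((k - 1) * i) * q₀ ^ i := by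
    rw [← pow_add]
    congr 1
    obtain ⟨k', rfl⟩ : ∃ k', k = k' + 1 := ⟨k - 1, by omega⟩
    simp only [Nat.add_sub_cancel]
    ring
  rw [e4]
  have e5 : q₀ ^ i * (x + 1) - q₀ ^ i = q₀ ^ i * x := by
    rw [Nat.mul_add, Nat.mul_one, Nat.add_sub_cancel]
  rw [e5]
  rw [Nat.mul_add, Nat.mul_one, Nat.add_sub_cancel]
  ring

theorem idx_formula {q₀ k n' A A₀ idx : ℕ} (h1 : idx * A₀ = A)
    (h2 : ∏ i : Fin (n' + 1), ((q₀ ^ k) ^ (n' + 1) - (q₀ ^ k) ^ (i : ℕ)) = (q₀ ^ k - 1) * A)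
    (h3 : ∏ i : Fin (n' + 1), (q₀ ^ (n' + 1) - q₀ ^ (i : ℕ)) = (q₀ - 1) * A₀) (hq₀ : 2 ≤ q₀) (hk : 1 ≤ k) (hA₀ : 0 < A₀) :
    idx = (∏ i : Fin n', (q₀ ^ ((k - 1) * (i : ℕ)) * S q₀ k (n' + 1 - (i : ℕ)))) * q₀ ^ ((k - 1) * n') := by
  have hq0 : 0 < q₀ := by omega
  have hterm : ∀ i : Fin (n' + 1), (q₀ ^ k) ^ (n' + 1) - (q₀ ^ k) ^ (i : ℕ) =
      (q₀ ^ (n' + 1) - q₀ ^ (i : ℕ)) * (q₀ ^ ((k - 1) * (i : ℕ)) * S q₀ k (n' + 1 - (i : ℕ))) :=
    fun i => term_identity hq0 hk i (by have := i.2; omega)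
  rw [Finset.prod_congr rfl (fun i _ => hterm i), Finset.prod_mul_distrib, h3, Fin.prod_univ_castSucc (n := n')] at h2
  simp only [Fin.val_castSucc, Fin.val_last] at h2
  have hS1 : S q₀ k (n' + 1 - n') = S q₀ k 1 := by
    congr 1
    omega
  rw [hS1] at h2
  obtain ⟨x, hx⟩ : ∃ x, q₀ = x + 1 := ⟨q₀ - 1, by omega⟩
  have hgeom : q₀ ^ k - 1 = (q₀ - 1) * S q₀ k 1 := by
    have hS := geom_sum_mul_add x k
    have h4 : S q₀ k 1 = ∑ i ∈ Finset.range k, (x + 1) ^ i := by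
      unfold S
      rw [pow_one, hx]
    rw [h4, hx, ← hS]
    simp [mul_comm]
  have hSpos : 0 < S q₀ k 1 := by
    unfold S
    apply Finset.sum_pos
    · intro i _
      positivity
    · exact ⟨0, Finset.mem_range.2 (by omega)⟩
  rw [hgeom, ← h1] at h2
  have hx0 : 0 < q₀ - 1 := by omega
  set P := ∏ i : Fin n', (q₀ ^ ((k - 1) * (i : ℕ)) * S q₀ k (n' + 1 - (i : ℕ))) with hP
  have h5 : ((q₀ - 1) * A₀ * S q₀ k 1) * idx = ((q₀ - 1) * A₀ * S q₀ k 1) * (P * q₀ ^ ((k - 1) * n')) := by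
    linear_combination -h2
  exact Nat.eq_of_mul_eq_mul_left (by positivity) h5

/-- The consequence for a prime dividing the index. -/
theorem exists_j_of_dvd {q₀ k n' r idx : ℕ} [Fact r.Prime] (hk : k.Prime) (hrk : r ≠ k) (hrq : ¬ r ∣ q₀)
    (hidx : idx = (∏ i : Fin n', (q₀ ^ ((k - 1) * (i : ℕ)) * S q₀ k (n' + 1 - (i : ℕ)))) * q₀ ^ ((k - 1) * n'))
    (hd : r ∣ idx) :
    ∃ j, 2 ≤ j ∧ j ≤ n' + 1 ∧ (q₀ : ZMod r) ^ j ≠ 1 ∧ ((q₀ ^ k : ℕ) : ZMod r) ^ j = 1 := by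
  have hr : r.Prime := Fact.out
  rw [hidx] at hd
  rcases (Nat.Prime.dvd_mul hr).1 hd with h | h
  · obtain ⟨i, -, hi⟩ := (Prime.dvd_finsetProd_iff hr.prime _).1 h
    rcases (Nat.Prime.dvd_mul hr).1 hi with h1 | h1
    · exact absurd (hr.dvd_of_dvd_pow h1) hrq
    · refine ⟨n' + 1 - i, by have := i.2; omega, by omega, ?_, ?_⟩
      all_goals
        set t := n' + 1 - (i : ℕ) with ht
        have h2 : ((S q₀ k t : ℕ) : ZMod r) = 0 := (ZMod.natCast_eq_zero_iff _ _).2 h1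
        have h3 : ∑ s ∈ Finset.range k, ((q₀ : ZMod r) ^ t) ^ s = 0 := by
          rw [← h2]
          unfold S
          push_cast
          rfl
        have h4 : (∑ s ∈ Finset.range k, ((q₀ : ZMod r) ^ t) ^ s) * ((q₀ : ZMod r) ^ t - 1) = ((q₀ : ZMod r) ^ t) ^ k - 1 :=
          geom_sum_mul _ _
      · intro h5
        rw [h5] at h3
        simp only [one_pow, Finset.sum_const, Finset.card_range, nsmul_eq_mul, mul_one] at h3
        have h6 : r ∣ k := (ZMod.natCast_eq_zero_iff _ _).1 h3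
        exact hrk ((Nat.prime_dvd_prime_iff_eq hr hk).1 h6)
      · rw [h3, zero_mul] at h4
        have h5 : ((q₀ : ZMod r) ^ t) ^ k = 1 := (sub_eq_zero.1 h4.symm)
        push_cast
        rw [← pow_mul, mul_comm, pow_mul]
        exact h5
  · exact absurd (hr.dvd_of_dvd_pow h) hrq

end Arith

section Index

variable {F : Type*} [Field F] [Fintype F] {p : ℕ} [Fact p.Prime] [CharP F p]

open Cfsg.Agent.S5964 in
/-- A prime `r ≠ k`, different from the characteristic, dividing the index of the subfield subgroup. -/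
theorem exists_j (n : ℕ) (hn : 2 ≤ n) (F₀ : Subfield F) {k q₀ r : ℕ} [Fact r.Prime] (hk : k.Prime) (hF₀ : Nat.card F₀ = q₀)
    (hq : Fintype.card F = q₀ ^ k) (hrk : r ≠ k) (hrq : ¬ r ∣ q₀)
    (hΩ : r ∣ ((Cfsg.Geo.subfieldSubgroup F₀ 1).comap (Matrix.SpecialLinearGroup.toGL :
      Matrix.SpecialLinearGroup (Fin n) F →* GL (Fin n) F)).index) :
    ∃ j, 2 ≤ j ∧ j ≤ n ∧ (q₀ : ZMod r) ^ j ≠ 1 ∧ ((q₀ ^ k : ℕ) : ZMod r) ^ j = 1 := by
  classical
  obtain ⟨n', rfl⟩ : ∃ n', n = n' + 1 := ⟨n - 1, by omega⟩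
  letI : Fintype F₀ := Fintype.ofFinite _
  have hc : Fintype.card F₀ = q₀ := by rw [← Nat.card_eq_fintype_card, hF₀]
  have hq₀ : 2 ≤ q₀ := by
    rw [← hc]
    exact Fintype.one_lt_card
  set ι := Matrix.SpecialLinearGroup.map (n := Fin (n' + 1)) (F₀.subtype : F₀ →+* F) with hι
  have hinj : Function.Injective ι := by
    intro a b hab
    apply Subtype.ext
    ext i j
    have h1 := congrArg (fun g : Matrix.SpecialLinearGroup (Fin (n' + 1)) F => (g : Matrix (Fin (n' + 1)) (Fin (n' + 1)) F) i j) hab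
    exact h1
  set L := ι.range with hL
  have hle : L ≤ ((Cfsg.Geo.subfieldSubgroup F₀ 1).comap (Matrix.SpecialLinearGroup.toGL :
      Matrix.SpecialLinearGroup (Fin (n' + 1)) F →* GL (Fin (n' + 1)) F)) := by
    rintro _ ⟨y, rfl⟩
    apply Subgroup.mem_comap.2
    apply mem_sub_of_entries F₀ one_ne_zero
    intro i j
    rw [one_mul]
    exact ((y : Matrix (Fin (n' + 1)) (Fin (n' + 1)) F₀) i j).2
  have hd := hΩ.trans (Subgroup.index_dvd_of_le hle)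
  have hcardL : Nat.card L = Nat.card (Matrix.SpecialLinearGroup (Fin (n' + 1)) F₀) :=
    Nat.card_congr (MonoidHom.ofInjective hinj).toEquiv.symm
  have h1 : L.index * Nat.card (Matrix.SpecialLinearGroup (Fin (n' + 1)) F₀) =
      Nat.card (Matrix.SpecialLinearGroup (Fin (n' + 1)) F) := by
    rw [← hcardL, mul_comm]
    exact L.card_mul_index
  have h2 := Cfsg.Agent.Lib.Linalg.Basic.card_GL_eq_mul_card_SL (F := F) (ι := Fin (n' + 1))
  have h3 := Cfsg.Agent.Lib.Linalg.Basic.card_GL_eq_mul_card_SL (F := F₀) (ι := Fin (n' + 1))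
  rw [Matrix.card_GL_field, Nat.card_eq_fintype_card, hq] at h2
  rw [Matrix.card_GL_field, Nat.card_eq_fintype_card, hc] at h3
  have hpos : 0 < Nat.card (Matrix.SpecialLinearGroup (Fin (n' + 1)) F₀) := Nat.card_pos
  have hidx := idx_formula h1 h2 h3 hq₀ hk.one_le hpos
  exact exists_j_of_dvd hk hrk hrq hidx hd

end Index

end Cfsg.Agent.Lib.Classical.SubF
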