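import Mathlib
import Cfsg.Agent.Lib.Classical.SubF.Num

/-!
# The exceptional case and elements whose power is not an `r`-th power
-/

set_option autoImplicit false
set_option linter.unusedSectionVars false
set_option linter.unusedSimpArgs false
set_option linter.unusedVariables false
set_option linter.style.haveILetI false

open scoped MatrixGroups
open Polynomial Module

namespace Cfsg.Agent.Lib.Classical.SubF

open Cfsg.Agent.Lib.Linalg.SemisimpleClasses Cfsg.Agent.Lib.Linalg.RCF Cfsg.Agent.Lib.Linalg.RCFType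
open Cfsg.Agent.Lib.Linalg.PrimeOrderClasses

section Root

variable {F : Type*} [Field F] [Fintype F]

theorem exists_pow_root {r : ℕ} (hr : r.Prime) (hdiv : r ∣ Fintype.card F - 1) {z : F} (hz : z ≠ 0)
    (h : z ^ ((Fintype.card F - 1) / r) = 1) : ∃ c : F, c ^ r = z := by
  classical
  obtain ⟨g, hg⟩ := IsCyclic.exists_monoid_generator (α := Fˣ)
  obtain ⟨m, hm⟩ := hg (Units.mk0 z hz)
  have hm' : (g : F) ^ m = z := by
    have := congrArg Units.val hm
    simpa using this
  have hord : orderOf g = Fintype.card F - 1 := by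
    rw [← Fintype.card_units, ← Nat.card_eq_fintype_card]
    apply orderOf_eq_card_of_forall_mem_zpowers
    intro x
    obtain ⟨t, ht⟩ := hg x
    exact ⟨(t : ℤ), by simpa using ht⟩
  obtain ⟨s, hs⟩ := hdiv
  have hspos : 0 < s := by
    rcases Nat.eq_zero_or_pos s with h0 | h0
    · rw [h0, mul_zero] at hs
      have : 2 ≤ Fintype.card F := Fintype.one_lt_card
      omega
    · exact h0
  have hd : (Fintype.card F - 1) / r = s := by
    rw [hs]
    exact Nat.mul_div_cancel_left _ hr.pos
  rw [hd] at h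
  have h1 : g ^ (m * s) = 1 := by
    apply Units.ext
    simpa [pow_mul, hm'] using h
  have h2 := orderOf_dvd_of_pow_eq_one h1
  rw [hord, hs, mul_comm m] at h2
  have h3 : r ∣ m := Nat.dvd_of_mul_dvd_mul_right hspos (by rwa [mul_comm s m] at h2)
  obtain ⟨t, rfl⟩ := h3
  refine ⟨(g : F) ^ t, ?_⟩
  rw [← pow_mul, mul_comm, hm']

theorem exists_pow_root_of_not_dvd {r : ℕ} (hr : r.Prime) (h : ¬ r ∣ Fintype.card F - 1) {z : F} (hz : z ≠ 0) :
    ∃ c : F, c ^ r = z := by
  classical
  have hinj : Function.Injective (powMonoidHom r : Fˣ →* Fˣ) := by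
    rw [injective_iff_map_eq_one]
    intro a ha
    have h1 : (a : F) ^ r = 1 := by
      have := congrArg Units.val ha
      simpa using this
    apply Units.ext
    exact Cfsg.Agent.Lib.Classical.Elusive.SlSp.eq_one_of_coprime hr h h1
  obtain ⟨a, ha⟩ := (Finite.surjective_of_injective hinj) (Units.mk0 z hz)
  refine ⟨a, ?_⟩
  have := congrArg Units.val ha
  simpa using this

end Root

section NonPower

variable {F : Type*} [Field F] {n : ℕ}

/-- An element of `SL` whose `r`-th power is a scalar that is not an `r`-th power. -/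
theorem exists_t_of_nonpower {r : ℕ} (hr : r.Prime) (hr2 : r ≠ 2) (x : Matrix.SpecialLinearGroup (Fin n) F) {z : F}
    (hx : (x : Matrix (Fin n) (Fin n) F) ^ r = z • (1 : Matrix (Fin n) (Fin n) F)) (hz : ∀ b : F, b ^ r ≠ z) :
    ∃ t, n = r * t ∧ z ^ t = 1 := by
  classical
  set A : Matrix (Fin n) (Fin n) F := (x : Matrix (Fin n) (Fin n) F) with hA
  set P : F[X] := X ^ r - C z with hP
  have hPi : Irreducible P := X_pow_sub_C_irreducible_of_prime hr hz
  have hPm : P.Monic := monic_X_pow_sub_C z hr.ne_zero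
  have hPd : P.natDegree = r := natDegree_X_pow_sub_C
  have h1 := (aeval_matrix_eq_zero_iff A _).1 (aeval_eq_zero_of_pow hx)
  have h2 : ∀ a ∈ matType A, a = (P, 1) := by
    intro a ha
    have hadm := matType_adm A a ha
    have h3 : a.1 ∣ P := (dvd_pow_self a.1 hadm.2.2.ne').trans (h1 a ha)
    have h4 : a.1 = P := eq_of_monic_of_associated hadm.1 hPm (hadm.2.1.associated_of_dvd hPi h3)
    have h5 := h1 a ha
    rw [h4] at h5
    have h6 := natDegree_le_of_dvd h5 hPm.ne_zero
    rw [natDegree_pow, hPd] at h6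
    have h7 : a.2 ≤ 1 := by
      have : a.2 * r ≤ 1 * r := by simpa using h6
      exact Nat.le_of_mul_le_mul_right this hr.pos
    have h8 := hadm.2.2
    exact Prod.ext h4 (by simp; omega)
  have h3 : matType A = Multiset.replicate (Multiset.card (matType A)) (P, 1) :=
    Multiset.eq_replicate_card.2 h2
  set t := Multiset.card (matType A) with ht
  have hsum := sum_matType A
  rw [h3] at hsum
  simp only [Multiset.map_replicate, Multiset.sum_replicate, smul_eq_mul, one_mul, hPd, Fintype.card_fin] at hsum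
  have hn : n = r * t := by rw [← hsum, mul_comm]
  refine ⟨t, hn, ?_⟩
  have hchar : A.charpoly = P ^ t := by
    rw [charpoly_eq_prod_matType, h3]
    simp [Multiset.map_replicate]
  have hdet : (-1 : F) ^ n * A.charpoly.coeff 0 = 1 := by
    have h := Matrix.det_eq_sign_charpoly_coeff A
    rw [Fintype.card_fin] at h
    exact h.symm.trans x.2
  rw [hchar, coeff_zero_eq_eval_zero, eval_pow] at hdet
  have h4 : P.eval 0 = -z := by
    simp [hP, hr.ne_zero]
  rw [h4, hn, pow_mul] at hdet
  have hodd : Odd r := hr.odd_of_ne_two hr2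
  rw [hodd.neg_one_pow, neg_pow z t, ← mul_assoc, ← mul_pow] at hdet
  simpa using hdet

end NonPower

section Reflect

theorem reflection_three : ∀ a b c : ZMod 3, a + b + c = 0 → ∃ l : ZMod 3,
    (({a, b, c} : Multiset (ZMod 3)).map fun j => 2 * l - j) = {a, b, c} := by
  decide +kernel

theorem reflection_five : ∀ a b c d e : ZMod 5, a + b + c + d + e = 0 → ∃ l : ZMod 5,
    (({a, b, c, d, e} : Multiset (ZMod 5)).map fun j => 2 * l - j) = {a, b, c, d, e} := by
  decide +kernel

/-- Multisets of `r` elements of `ℤ/r` of sum zero, for `r = 3, 5`, are symmetric under some reflection. -/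
theorem exists_reflection {r : ℕ} (hr : r = 3 ∨ r = 5) (N : Multiset (ZMod r)) (hc : Multiset.card N = r)
    (hs : N.sum = 0) : ∃ l : ZMod r, N.map (fun j => 2 * l - j) = N := by
  induction N using Quotient.inductionOn with
  | h L =>
    rcases hr with rfl | rfl
    · match L, hc with
      | [a, b, c], _ =>
        have h1 : a + b + c = 0 := by
          have : a + (b + c) = 0 := by simpa using hs
          rw [← this]
          ring
        exact reflection_three a b c h1
    · match L, hc with
      | [a, b, c, d, e], _ =>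
        have h1 : a + b + c + d + e = 0 := by
          have : a + (b + (c + (d + e))) = 0 := by simpa using hs
          rw [← this]
          ring
        exact reflection_five a b c d e h1

end Reflect

section Exc

variable {F : Type*} [Field F] [Fintype F]

theorem exists_orderOf_of_dvd {r : ℕ} [Fact r.Prime] (hdiv : r ∣ Fintype.card F - 1) : ∃ ζ : F, orderOf ζ = r := by
  classical
  have h1 : r ∣ Nat.card Fˣ := by
    rw [Nat.card_eq_fintype_card, Fintype.card_units]
    exact hdiv
  obtain ⟨u, hu⟩ := exists_prime_orderOf_dvd_card' r h1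
  exact ⟨u, by rw [← hu, orderOf_units]⟩

theorem exists_lift {α β : Type*} (e : α → β) (M : Multiset β) (h : ∀ v ∈ M, ∃ a, e a = v) :
    ∃ N : Multiset α, N.map e = M := by
  induction M using Multiset.induction_on with
  | empty => exact ⟨0, rfl⟩
  | cons v M ih =>
    obtain ⟨N, hN⟩ := ih (fun u hu => h u (Multiset.mem_cons_of_mem hu))
    obtain ⟨a, ha⟩ := h v (Multiset.mem_cons_self _ _)
    exact ⟨a ::ₘ N, by simp [hN, ha]⟩

theorem good_of_exc {r : ℕ} [Fact r.Prime] (hr35 : r = 3 ∨ r = 5) {φ : F →+* F} (hφ : ∀ v, v ^ r = 1 → φ v = v⁻¹)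
    (hdiv : r ∣ Fintype.card F - 1) (hnot : ¬ r ^ 2 ∣ Fintype.card F - 1)
    {y : Matrix (Fin r) (Fin r) F} (hy : y ^ r = 1) {d : F} (hd : y.det = d ^ r) : Good φ y := by
  classical
  have hr : r.Prime := Fact.out
  obtain ⟨ζ, hζ⟩ := exists_orderOf_of_dvd (F := F) hdiv
  have hζr : ζ ^ r = 1 := hζ ▸ pow_orderOf_eq_one ζ
  have hζ0 := ne_zero_of_orderOf hr hζ
  have hζ1 := ne_one_of_orderOf hr hζ
  have hprim : IsPrimitiveRoot ζ r := hζ ▸ IsPrimitiveRoot.orderOf ζ
  -- the exponential map
  let e : ZMod r → F := fun a => ζ ^ a.val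
  have e_add : ∀ a b, e (a + b) = e a * e b := by
    intro a b
    change ζ ^ (a + b).val = ζ ^ a.val * ζ ^ b.val
    rw [ZMod.val_add, ← pow_add, pow_eq_pow_mod (a.val + b.val) hζr]
  have e_zero : e 0 = 1 := by
    change ζ ^ (0 : ZMod r).val = 1
    rw [ZMod.val_zero, pow_zero]
  have e_ne : ∀ a, e a ≠ 0 := fun a => pow_ne_zero _ hζ0
  have e_neg : ∀ a, e (-a) = (e a)⁻¹ := by
    intro a
    apply eq_inv_of_mul_eq_one_left
    rw [← e_add, neg_add_cancel, e_zero]
  have e_pow : ∀ a, e a ^ r = 1 := by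
    intro a
    change (ζ ^ a.val) ^ r = 1
    rw [← pow_mul, mul_comm, pow_mul, hζr, one_pow]
  have e_surj : ∀ v : F, v ^ r = 1 → ∃ a, e a = v := by
    intro v hv
    obtain ⟨i, hi, hiv⟩ := hprim.eq_pow_of_pow_eq_one hv
    refine ⟨(i : ZMod r), ?_⟩
    change ζ ^ ((i : ZMod r)).val = v
    rw [ZMod.val_natCast, Nat.mod_eq_of_lt hi, hiv]
  have e_nat : ∀ (m : ℕ) (a : ZMod r), e ((m : ZMod r) * a) = e a ^ m := by
    intro m a
    induction m with
    | zero => simp [e_zero]
    | succ m ih =>
      have : ((m + 1 : ℕ) : ZMod r) * a = (m : ZMod r) * a + a := by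
        push_cast
        ring
      rw [this, e_add, ih, pow_succ]
  have e_prod : ∀ N : Multiset (ZMod r), (N.map e).prod = e N.sum := by
    intro N
    induction N using Multiset.induction_on with
    | empty => simp [e_zero]
    | cons a N ih =>
      rw [Multiset.map_cons, Multiset.prod_cons, Multiset.sum_cons, ih, e_add]
  -- the polynomial splits
  have hP : (X ^ r - C (1 : F) : F[X]).Splits := X_pow_sub_C_splits_of_isPrimitiveRoot hprim (one_pow r)
  have hP0 : (X ^ r - C (1 : F) : F[X]) ≠ 0 := (monic_X_pow_sub_C (1 : F) hr.ne_zero).ne_zero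
  have hy' : y ^ r = (1 : F) • (1 : Matrix (Fin r) (Fin r) F) := by rw [hy, one_smul]
  obtain ⟨T, hT⟩ := charpoly_dvd_pow_of_pow hy'
  have hS : y.charpoly.Splits := (hP.pow T).of_dvd (pow_ne_zero _ hP0) hT
  set M := y.charpoly.roots with hM
  have hMchar : y.charpoly = (M.map fun v => (X - C v : F[X])).prod :=
    hS.eq_prod_roots_of_monic y.charpoly_monic
  have hMcard : Multiset.card M = r := by
    rw [hM, ← hS.natDegree_eq_card_roots, Matrix.charpoly_natDegree_eq_dim, Fintype.card_fin]
  have hMr : ∀ v ∈ M, v ^ r = 1 := by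
    intro v hv
    have h1 : IsRoot y.charpoly v := isRoot_of_mem_roots hv
    have h2 : IsRoot ((X ^ r - C (1 : F) : F[X]) ^ T) v := eval_eq_zero_of_dvd_of_eval_eq_zero hT h1
    have h3 : (v ^ r - 1) ^ T = 0 := by
      simpa [IsRoot.def, eval_pow] using h2
    exact sub_eq_zero.1 (by_contra fun h => pow_ne_zero T h h3)
  have hMprod : M.prod = d ^ r := by
    rw [hM, ← Matrix.det_eq_prod_roots_charpoly_of_splits hS, hd]
  obtain ⟨N, hN⟩ := exists_lift e M (fun v hv => e_surj v (hMr v hv))
  have hNcard : Multiset.card N = r := by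
    rw [← Multiset.card_map e, hN, hMcard]
  have hNsum : N.sum = 0 := by
    by_contra hs
    have h1 : e N.sum = d ^ r := by
      rw [← e_prod, hN, hMprod]
    -- `ζ` is an `r`-th power
    set s := N.sum with hsdef
    have h2 : ((s⁻¹ : ZMod r).val : ZMod r) * s = 1 := by
      rw [ZMod.natCast_zmod_val, inv_mul_cancel₀ hs]
    have h3 : e 1 = ζ := by
      change ζ ^ (1 : ZMod r).val = ζ
      rw [ZMod.val_one r, pow_one]
    have h4 : ζ = (d ^ (s⁻¹ : ZMod r).val) ^ r := by
      rw [← h3, ← h2, e_nat, h1, ← pow_mul, ← pow_mul, mul_comm]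
    set b := d ^ (s⁻¹ : ZMod r).val with hb
    have hb0 : b ≠ 0 := by
      intro h0
      rw [h0, zero_pow hr.ne_zero] at h4
      exact hζ0 h4
    obtain ⟨w, hw⟩ := hdiv
    have h5 : ζ ^ w = 1 := by
      rw [h4, ← pow_mul, ← hw]
      exact FiniteField.pow_card_sub_one_eq_one b hb0
    have h6 : r ∣ w := hζ ▸ orderOf_dvd_of_pow_eq_one h5
    apply hnot
    rw [hw, pow_two]
    exact Nat.mul_dvd_mul_left r h6
  obtain ⟨l, hl⟩ := exists_reflection hr35 N hNcard hNsum
  obtain ⟨w, hw⟩ := exists_fn_of_multiset M hMcard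
  have hc : (Matrix.diagonal w).charpoly = y.charpoly := by
    rw [charpoly_diag, hw, ← hMchar]
  apply Good.of_charpoly hc
  rw [good_diag_iff, hw]
  refine ⟨e (-l), e_ne _, ?_⟩
  rw [← hN]
  have h1 : ((N.map e).map fun v => e (-l) * v) = N.map (fun j => e (j - l)) := by
    rw [Multiset.map_map]
    apply Multiset.map_congr rfl
    intro j _
    simp only [Function.comp]
    rw [sub_eq_add_neg, e_add, mul_comm]
  rw [h1, Multiset.map_map]
  have h2 : N.map (φ ∘ fun j => e (j - l)) = N.map (fun j => e (l - j)) := by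
    apply Multiset.map_congr rfl
    intro j _
    simp only [Function.comp]
    rw [hφ _ (e_pow _), ← e_neg, neg_sub]
  rw [h2]
  conv_rhs => rw [← hl, Multiset.map_map]
  apply Multiset.map_congr rfl
  intro j _
  simp only [Function.comp]
  congr 1
  ring

end Exc

end Cfsg.Agent.Lib.Classical.SubF
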