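import Mathlib
import Cfsg.Agent.Lib.Classical.SubF.Exc

/-!
# Elements of odd prime order and the subfield subgroups of `SL_n(q)`
-/

set_option autoImplicit false
set_option linter.unusedSectionVars false
set_option linter.unusedSimpArgs false
set_option linter.unusedVariables false
set_option linter.style.haveILetI false

open scoped MatrixGroups
open Polynomial Module

namespace Cfsg.Agent.Lib.Classical.SubF

section NumZ

theorem pow_div_eq_one {F : Type*} [Field F] {r t n Q : ℕ} [Fact r.Prime] (hn : n = r * t) (hn0 : n ≠ 0) (hQ : r ∣ Q) (hQ0 : Q ≠ 0)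
    (hv : padicValNat r n ≤ padicValNat r Q) {z : F} (hzt : z ^ t = 1) (hzQ : z ^ Q = 1) : z ^ (Q / r) = 1 := by
  have hr : r.Prime := Fact.out
  have ht0 : t ≠ 0 := by
    rintro rfl
    simp at hn
    exact hn0 hn
  obtain ⟨m, rfl⟩ := hQ
  have hm0 : m ≠ 0 := by
    rintro rfl
    simp at hQ0
  rw [Nat.mul_div_cancel_left _ hr.pos]
  rw [hn, padicValNat.mul hr.ne_zero ht0, padicValNat.mul hr.ne_zero hm0, padicValNat_self] at hv
  obtain ⟨a, t', ht', rfl⟩ := Nat.exists_eq_pow_mul_and_not_dvd ht0 r hr.ne_one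
  have ht'0 : t' ≠ 0 := by
    rintro rfl
    simp at ht0
  rw [padicValNat.mul (pow_ne_zero _ hr.ne_zero) ht'0, padicValNat.prime_pow, padicValNat.eq_zero_of_not_dvd ht', add_zero] at hv
  have h1 : r ^ a ∣ m := (padicValNat_dvd_iff_le hm0).2 (by omega)
  obtain ⟨m', rfl⟩ := h1
  apply eq_one_of_pow_pow hr ht'
  · rw [← pow_mul, mul_comm]
    exact hzQ
  · calc (z ^ (r ^ a * m')) ^ t' = (z ^ (r ^ a * t')) ^ m' := by
          rw [← pow_mul, ← pow_mul]
          congr 1
          ring
      _ = 1 := by rw [hzt, one_pow]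

end NumZ

section Main

variable {F : Type*} [Field F] [Fintype F] {p : ℕ} [Fact p.Prime] [CharP F p] {q : ℕ}

theorem frob_inv {e q₀ r : ℕ} (he : q₀ = p ^ e) (hfrob : ∀ y, iterateFrobenius F p e y = y ^ q₀)
    (hd : r ∣ q₀ + 1) (v : F) (hv : v ^ r = 1) (hr : r ≠ 0) : iterateFrobenius F p e v = v⁻¹ := by
  have hv0 : v ≠ 0 := by
    rintro rfl
    rw [zero_pow hr] at hv
    exact zero_ne_one hv
  rw [hfrob]
  apply eq_inv_of_mul_eq_one_left
  rw [← pow_succ]
  obtain ⟨w, hw⟩ := hd
  rw [hw, pow_mul, hv, one_pow]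

/-- Existence of the element avoiding the subfield subgroups. -/
theorem forward (hq : Fintype.card F = q) (n : ℕ) (hn : 2 ≤ n)
    (F₀ : Subfield F) (k q₀ : ℕ) (hk : k.Prime) (hF₀ : Nat.card ↥F₀ = q₀) (hqk : q = q₀ ^ k)
    (r : ℕ) [Fact r.Prime] (hr2 : r ≠ 2) (hrp : r ≠ p) (hgap : ¬ (n = 6 ∧ r = 3))
    (hΩ : r ∣ ((Cfsg.Geo.subfieldSubgroup F₀ 1).comap (Matrix.SpecialLinearGroup.toGL : Matrix.SpecialLinearGroup (Fin n) F →* GL (Fin n) F)).index)
    (hrk : r ≠ k) (hexc : ¬ (k = 2 ∧ r = n ∧ (n = 3 ∨ n = 5) ∧ padicValNat r (q₀ + 1) = 1))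
    {e : ℕ} (he : q₀ = p ^ e) (hfrob : ∀ y, iterateFrobenius F p e y = y ^ q₀) :
    ∃ x : Matrix.SpecialLinearGroup (Fin n) F,
      (∃ z : F, ((x ^ r : Matrix.SpecialLinearGroup (Fin n) F) : Matrix (Fin n) (Fin n) F) = z • (1 : Matrix (Fin n) (Fin n) F)) ∧
      (∀ c : F, (x : Matrix (Fin n) (Fin n) F) ≠ c • (1 : Matrix (Fin n) (Fin n) F)) ∧
      ¬ Good (iterateFrobenius F p e) (x : Matrix (Fin n) (Fin n) F) := by
  classical
  have hr : r.Prime := Fact.out
  have hp : p.Prime := Fact.out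
  have hrq : ¬ r ∣ q₀ := by
    rw [he]
    intro h
    exact hrp ((Nat.prime_dvd_prime_iff_eq hr hp).1 (hr.dvd_of_dvd_pow h))
  have hq₀pos : 0 < q₀ := by
    rw [he]
    exact pow_pos hp.pos _
  have hq1 : 1 ≤ q := by
    rw [← hq]
    exact Fintype.card_pos
  obtain ⟨j, hj2, hjn, hj1, hj3⟩ := exists_j n hn F₀ hk hF₀ (hq.trans hqk) hrk hrq hΩ
  by_cases hd : r ∣ q - 1
  · have hqZ : (q : ZMod r) = 1 := by
      have h1 : ((q - 1 : ℕ) : ZMod r) = 0 := (ZMod.natCast_eq_zero_iff _ _).2 hd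
      rw [Nat.cast_sub hq1, Nat.cast_one, sub_eq_zero] at h1
      exact h1
    have hq₀k : (q₀ : ZMod r) ^ k = 1 := by
      rw [← hqZ, hqk]
      push_cast
      rfl
    have hq₀1 : (q₀ : ZMod r) ≠ 1 := by
      intro h
      apply hj1
      rw [h, one_pow]
    obtain ⟨ζ, hζ⟩ := exists_orderOf_of_dvd (F := F) (r := r) (by rwa [hq])
    have hζr : ζ ^ r = 1 := hζ ▸ pow_orderOf_eq_one ζ
    have hζ0 := ne_zero_of_orderOf hr hζ
    by_cases hk2 : k = 2
    · subst hk2
      have hq₀2 : ((q₀ : ZMod r) - 1) * ((q₀ : ZMod r) + 1) = 0 := by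
        linear_combination hq₀k
      have hq₀m : (q₀ : ZMod r) + 1 = 0 := (mul_eq_zero.1 hq₀2).resolve_left (sub_ne_zero.2 hq₀1)
      have hd1 : r ∣ q₀ + 1 := by
        rw [← ZMod.natCast_eq_zero_iff]
        push_cast
        exact hq₀m
      have hinv := frob_inv (F := F) he hfrob hd1
      have hφζ : iterateFrobenius F p e ζ = ζ⁻¹ := hinv ζ hζr hr.ne_zero
      have hj3' : 3 ≤ j := by
        by_contra hlt
        have hj : j = 2 := by omega
        rw [hj] at hj1
        exact hj1 hq₀k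
      have hn3 : 3 ≤ n := hj3'.trans hjn
      by_cases hc : r = n ∧ (n = 3 ∨ n = 5)
      · obtain ⟨rfl, hc2⟩ := hc
        have hv : padicValNat r (q₀ + 1) ≠ 1 := fun h => hexc ⟨rfl, rfl, hc2, h⟩
        have hv1 : 1 ≤ padicValNat r (q₀ + 1) := one_le_padicValNat_of_dvd (by omega) hd1
        have hv2 : r ^ 2 ∣ q₀ + 1 := (padicValNat_dvd_iff_le (by omega)).2 (by omega)
        have hqq : q - 1 = (q₀ - 1) * (q₀ + 1) := by
          rw [hqk]
          obtain ⟨u, rfl⟩ : ∃ u, q₀ = u + 1 := ⟨q₀ - 1, by omega⟩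
          simp only [Nat.add_sub_cancel]
          apply Nat.sub_eq_of_eq_add
          ring
        have hdvd2 : r ^ 2 ∣ q - 1 := by
          rw [hqq]
          exact hv2.mul_left _
        obtain ⟨u, hu⟩ := hdvd2
        have hdiv' : (Fintype.card F - 1) / r = r * u := by
          rw [hq, hu, pow_two, mul_assoc]
          exact Nat.mul_div_cancel_left _ hr.pos
        obtain ⟨c, hc⟩ := exists_pow_root (F := F) (z := ζ⁻¹) hr (by rwa [hq]) (inv_ne_zero hζ0) (by
          rw [hdiv', pow_mul, inv_pow, hζr, inv_one, one_pow])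
        obtain ⟨x, h1, h2, h3⟩ := exists_bad_E3c hr hr2 hζ hφζ hc
        exact ⟨x, ⟨_, h1⟩, h2, h3⟩
      · by_cases hr3 : r = 3
        · subst hr3
          obtain ⟨m, rfl⟩ : ∃ m, n = m + 3 := ⟨n - 3, by omega⟩
          have hm0 : m ≠ 0 := by
            rintro rfl
            exact hc ⟨rfl, Or.inl rfl⟩
          have hm3 : m ≠ 3 := by
            rintro rfl
            exact hgap ⟨rfl, rfl⟩
          obtain ⟨x, h1, h2, h3⟩ := exists_bad_E3a hζ hφζ hm0 hm3
          exact ⟨x, ⟨_, h1⟩, h2, h3⟩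
        · obtain ⟨m, rfl⟩ : ∃ m, n = m + 3 := ⟨n - 3, by omega⟩
          have hh : ¬ r ∣ m + 3 ∨ 3 ≤ m := by
            by_contra hcon
            push Not at hcon
            obtain ⟨h1, h2⟩ := hcon
            have hle := Nat.le_of_dvd (by omega) h1
            have h5 : r = 5 := by
              have h6 : r ≤ 5 := by omega
              have h7 := hr.two_le
              interval_cases r
              · exact absurd rfl hr2
              · exact absurd rfl hr3
              · exact absurd hr (by norm_num)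
              · rfl
            subst h5
            have hm2 : m = 2 := by
              have : m + 3 = 5 := by omega
              omega
            subst hm2
            exact hc ⟨rfl, Or.inr rfl⟩
          obtain ⟨x, h1, h2, h3⟩ := exists_bad_E3b hr hr2 hr3 hζ hφζ hh
          exact ⟨x, ⟨_, h1⟩, h2, h3⟩
    · have hk3 : Odd k := hk.odd_of_ne_two hk2
      have hq₀2 : (q₀ : ZMod r) ^ 2 ≠ 1 := by
        intro h
        have h1 : (q₀ : ZMod r) ^ Nat.gcd 2 k = 1 := pow_gcd_eq_one.2 ⟨h, hq₀k⟩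
        have h2 : Nat.gcd 2 k = 1 := by
          rw [Nat.gcd_comm]
          exact hk3.coprime_two_right
        rw [h2, pow_one] at h1
        exact hq₀1 h1
      have hr3 : r ≠ 3 := by
        rintro rfl
        apply hq₀2
        have h1 : (q₀ : ZMod 3) ≠ 0 := by
          rw [Ne, ZMod.natCast_eq_zero_iff]
          exact hrq
        exact ZMod.pow_card_sub_one_eq_one h1
      have hu : iterateFrobenius F p e ζ ≠ ζ := by
        rw [hfrob]
        intro h
        apply hq₀1
        obtain ⟨u, hu⟩ : ∃ u, q₀ = u + 1 := ⟨q₀ - 1, by omega⟩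
        rw [hu, pow_succ] at h
        have h1 : ζ ^ u = 1 := mul_right_cancel₀ hζ0 (h.trans (one_mul ζ).symm)
        have h2 : r ∣ u := hζ ▸ orderOf_dvd_of_pow_eq_one h1
        have h3 : (u : ZMod r) = 0 := (ZMod.natCast_eq_zero_iff _ _).2 h2
        rw [hu]
        push_cast
        rw [h3, zero_add]
      have hu' : iterateFrobenius F p e ζ ≠ ζ⁻¹ := by
        rw [hfrob]
        intro h
        apply hq₀2
        have h1 : ζ ^ (q₀ + 1) = 1 := by
          rw [pow_succ, h, inv_mul_cancel₀ hζ0]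
        have h2 : r ∣ q₀ + 1 := hζ ▸ orderOf_dvd_of_pow_eq_one h1
        have h3 : ((q₀ + 1 : ℕ) : ZMod r) = 0 := (ZMod.natCast_eq_zero_iff _ _).2 h2
        push_cast at h3
        linear_combination ((q₀ : ZMod r) - 1) * h3
      obtain ⟨x, h1, h2, h3⟩ := exists_bad_E2 hr hr2 hr3 hn hζ hu hu'
      exact ⟨x, ⟨_, h1⟩, h2, h3⟩
  · obtain ⟨x, h1, h2, h3⟩ := exists_bad_E1 (e := e) (j := j) (n := n) (r := r) hq hrp hd (by omega) hjn
      (by rw [hqk]; exact hj3) (by rw [← he]; exact hj1)
    exact ⟨x, ⟨_, h1⟩, h2, h3⟩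

/-- Elements of order `r` are conjugate into the subfield subgroup in the stated cases. -/
theorem backward (hq : Fintype.card F = q) (n : ℕ) (hn : 2 ≤ n) (k q₀ : ℕ) (hk : k.Prime) (hqk : q = q₀ ^ k)
    (r : ℕ) [Fact r.Prime] (hr2 : r ≠ 2) (hrp : r ≠ p)
    (hgapk : r = k → r ∣ q₀ - 1 → padicValNat r n ≤ padicValNat r (q - 1))
    (hcase : r = k ∨ (k = 2 ∧ r = n ∧ (n = 3 ∨ n = 5) ∧ padicValNat r (q₀ + 1) = 1))
    {e : ℕ} (he : q₀ = p ^ e) (hfrob : ∀ y, iterateFrobenius F p e y = y ^ q₀)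
    (x : Matrix.SpecialLinearGroup (Fin n) F) {z : F}
    (hz : ((x ^ r : Matrix.SpecialLinearGroup (Fin n) F) : Matrix (Fin n) (Fin n) F) = z • (1 : Matrix (Fin n) (Fin n) F)) :
    (orderOf x).Coprime p ∧ Good (iterateFrobenius F p e) (x : Matrix (Fin n) (Fin n) F) := by
  classical
  have hr : r.Prime := Fact.out
  have hp : p.Prime := Fact.out
  have hq₀pos : 0 < q₀ := by
    rw [he]
    exact pow_pos hp.pos _
  have hq1 : 2 ≤ q := by
    rw [← hq]
    exact Fintype.one_lt_card
  rw [Matrix.SpecialLinearGroup.coe_pow] at hz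
  have hz0 : z ≠ 0 := by
    rintro rfl
    have h1 := congrArg Matrix.det hz
    haveI : Nonempty (Fin n) := ⟨⟨0, by omega⟩⟩
    rw [Matrix.det_pow, x.2, one_pow, zero_smul, Matrix.det_zero] at h1
    exact one_ne_zero h1
  constructor
  · have h1 : x ^ (r * (Fintype.card F - 1)) = 1 := by
      apply Subtype.ext
      rw [Matrix.SpecialLinearGroup.coe_pow, pow_mul, hz, _root_.smul_pow, one_pow,
        FiniteField.pow_card_sub_one_eq_one z hz0, one_smul]
      rfl
    have h2 : orderOf x ∣ r * (Fintype.card F - 1) := orderOf_dvd_of_pow_eq_one h1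
    refine Nat.Coprime.coprime_dvd_left h2 (Nat.Coprime.mul_left ?_ coprime_card_sub_one)
    exact (Nat.coprime_primes hr hp).2 hrp
  · by_cases hpow : ∃ c : F, c ^ r = z
    · obtain ⟨c, rfl⟩ := hpow
      have hc : c ≠ 0 := by
        rintro rfl
        rw [zero_pow hr.ne_zero] at hz0
        exact hz0 rfl
      set y : Matrix (Fin n) (Fin n) F := c⁻¹ • (x : Matrix (Fin n) (Fin n) F) with hy
      have hxy : (x : Matrix (Fin n) (Fin n) F) = c • y := by
        rw [hy, smul_smul, mul_inv_cancel₀ hc, one_smul]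
      have hyr : y ^ r = 1 := by
        rw [hy, _root_.smul_pow, hz, smul_smul, inv_pow, inv_mul_cancel₀ (pow_ne_zero _ hc), one_smul]
      rw [hxy]
      apply Good.smul hc
      rcases hcase with hrk | ⟨rfl, rfl, hn35, hv⟩
      · subst hrk
        refine ⟨1, one_ne_zero, ?_⟩
        rw [one_smul]
        refine charpoly_map_frob_eq hk e ?_ hyr
        have h1 : (q₀ : ZMod r) ^ r = q₀ := ZMod.pow_card _
        have h2 : ((p ^ e : ℕ) : ZMod r) = q₀ := by rw [he]
        push_cast at h2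
        rw [h2, hq, hqk]
        push_cast
        exact h1.symm
      · have hd1 : r ∣ q₀ + 1 := dvd_of_one_le_padicValNat (by omega)
        have hqq : q - 1 = (q₀ - 1) * (q₀ + 1) := by
          rw [hqk]
          obtain ⟨u, rfl⟩ : ∃ u, q₀ = u + 1 := ⟨q₀ - 1, by omega⟩
          simp only [Nat.add_sub_cancel]
          apply Nat.sub_eq_of_eq_add
          ring
        have hnot1 : ¬ r ∣ q₀ - 1 := by
          intro h
          have h2 : r ∣ (q₀ + 1) - (q₀ - 1) := Nat.dvd_sub hd1 h
          have h3 : (q₀ + 1) - (q₀ - 1) = 2 := by omega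
          rw [h3] at h2
          exact hr2 ((Nat.prime_dvd_prime_iff_eq hr Nat.prime_two).1 h2)
        have hnot : ¬ r ^ 2 ∣ Fintype.card F - 1 := by
          rw [hq, hqq]
          intro h
          have hcop : Nat.Coprime (r ^ 2) (q₀ - 1) := Nat.Coprime.pow_left 2 ((Nat.Prime.coprime_iff_not_dvd hr).2 hnot1)
          have h2 : r ^ 2 ∣ q₀ + 1 := hcop.dvd_of_dvd_mul_left h
          have h3 := (padicValNat_dvd_iff_le (p := r) (a := q₀ + 1) (n := 2) (by omega)).1 h2
          omega
        have hdiv : r ∣ Fintype.card F - 1 := by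
          rw [hq, hqq]
          exact hd1.mul_left _
        refine good_of_exc hn35 (fun v hv' => frob_inv (F := F) he hfrob hd1 v hv' hr.ne_zero) hdiv hnot hyr
          (d := c⁻¹) ?_
        rw [hy, Matrix.det_smul, x.2, mul_one, Fintype.card_fin]
    · exfalso
      push Not at hpow
      obtain ⟨t, htn, hzt⟩ := exists_t_of_nonpower hr hr2 x hz hpow
      rcases hcase with hrk | ⟨rfl, rfl, hn35, hv⟩
      · subst hrk
        by_cases hd : r ∣ q - 1
        · have hd' : r ∣ q₀ - 1 := by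
            have h1 : (q₀ : ZMod r) ^ r = q₀ := ZMod.pow_card _
            have h2 : (q : ZMod r) = 1 := by
              have h3 : ((q - 1 : ℕ) : ZMod r) = 0 := (ZMod.natCast_eq_zero_iff _ _).2 hd
              rw [Nat.cast_sub (by omega), Nat.cast_one, sub_eq_zero] at h3
              exact h3
            rw [hqk] at h2
            push_cast at h2
            rw [h1] at h2
            rw [← ZMod.natCast_eq_zero_iff, Nat.cast_sub hq₀pos, Nat.cast_one, h2, sub_self]
          have hv := hgapk rfl hd'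
          have h1 : z ^ (q - 1) = 1 := by
            rw [← hq]
            exact FiniteField.pow_card_sub_one_eq_one z hz0
          have h2 := pow_div_eq_one htn (by omega) hd (by omega) hv hzt h1
          obtain ⟨c, hc⟩ := exists_pow_root (F := F) hr (by rwa [hq]) hz0 (by rwa [hq])
          exact hpow c hc
        · obtain ⟨c, hc⟩ := exists_pow_root_of_not_dvd (F := F) hr (by rwa [hq]) hz0
          exact hpow c hc
      · have ht1 : t = 1 := by
          have h1 : r * 1 = r * t := by rw [mul_one]; exact htn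
          exact (Nat.eq_of_mul_eq_mul_left hr.pos h1).symm
        rw [ht1, pow_one] at hzt
        exact hpow 1 (by rw [one_pow, hzt])

end Main

end Cfsg.Agent.Lib.Classical.SubF
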